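import Mathlib
import Cfsg.Prelude.Def_Blocks
import Cfsg.Agent.Lib.Helper78.Eigen

set_option autoImplicit false

namespace Cfsg.Agent.Lib.Helper78

open Cfsg Module

/-- value at one of the character of a representation on `Fin n → ℂ` -/
theorem char_one_fin {G : Type*} [Group G] {n : ℕ} (ρ : Representation ℂ G (Fin n → ℂ)) :
    ρ.character 1 = (n : ℂ) := by
  rw [Representation.char_one, Module.finrank_fin_fun]

theorem charDegree_fin {G : Type*} [Group G] {n : ℕ} (ρ : Representation ℂ G (Fin n → ℂ)) :
    charDegree ρ.character = n := by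
  unfold charDegree
  rw [char_one_fin]
  simp

/-- an irreducible representation lives on a nonzero space -/
theorem irr_dim_pos {G : Type*} [Group G] {n : ℕ} (ρ : Representation ℂ G (Fin n → ℂ))
    (hirr : ρ.IsIrreducible) : 0 < n := by
  by_contra h
  have hn : n = 0 := by omega
  subst hn
  obtain ⟨x, y, hxy⟩ := hirr.toNontrivial
  apply hxy
  apply Subrepresentation.toSubmodule_injective
  exact Subsingleton.elim _ _

/-- Schur: an endomorphism commuting with an irreducible complex representation is a scalar -/
theorem schur_scalar {G : Type*} [Group G] {V : Type*} [AddCommGroup V] [Module ℂ V]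
    [FiniteDimensional ℂ V] (ρ : Representation ℂ G V) (hirr : ρ.IsIrreducible)
    (T : Module.End ℂ V) (hT : ∀ g : G, T ∘ₗ ρ g = ρ g ∘ₗ T) :
    ∃ c : ℂ, T = c • (1 : Module.End ℂ V) := by
  have := hirr
  let f : Representation.IntertwiningMap ρ ρ := ⟨T, hT⟩
  obtain ⟨c, hc⟩ :=
    (Representation.IsIrreducible.algebraMap_intertwiningMap_bijective_of_isAlgClosed
      (ρ := ρ)).2 f
  refine ⟨c, ?_⟩
  have h2 : f.toLinearMap = (c • (1 : Representation.IntertwiningMap ρ ρ)).toLinearMap := by
    rw [← hc]; rfl
  exact h2

/-- elements of the additive span of the image of a finite group are integral -/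
theorem isIntegral_of_mem_span {G : Type*} [Group G] [Finite G] {V : Type*} [AddCommGroup V]
    [Module ℂ V] (ρ : Representation ℂ G V) (T : Module.End ℂ V)
    (hT : T ∈ Submodule.span ℤ (Set.range ρ)) : IsIntegral ℤ T := by
  have hspan : (Algebra.adjoin ℤ (Set.range ρ)).toSubmodule = Submodule.span ℤ (Set.range ρ) := by
    rw [Algebra.adjoin_eq_span]
    congr 1
    have : Set.range ρ = ((MonoidHom.mrange ρ : Submonoid _) : Set _) := by
      ext x; simp
    rw [this, Submonoid.closure_eq]
  apply IsIntegral.of_mem_of_fg (Algebra.adjoin ℤ (Set.range ρ))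
  · rw [hspan]
    exact Submodule.fg_span (Set.finite_range ρ)
  · show T ∈ (Algebra.adjoin ℤ (Set.range ρ)).toSubmodule
    rw [hspan]
    exact hT

/-- the size of a conjugacy class, as a filter -/
theorem card_conj_filter {G : Type*} [Group G] [Fintype G] [DecidableEq G] (g : G) :
    (Finset.univ.filter (fun x => IsConj g x)).card
      = (Subgroup.centralizer ({g} : Set G)).index := by
  classical
  have h1 := MulAction.index_stabilizer (ConjAct G) g
  rw [ConjAct.stabilizer_eq_centralizer] at h1
  have h2 : (MulAction.orbit (ConjAct G) g).ncard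
      = (Finset.univ.filter (fun x => IsConj g x)).card := by
    rw [← Set.ncard_coe_finset]
    congr 1
    ext x
    rw [Finset.mem_coe, Finset.mem_filter, ConjAct.mem_orbit_conjAct, isConj_comm]
    simp
  rw [← h2, ← h1]
  rfl

theorem algebraMap_end_injective {n : ℕ} (hn : 0 < n) :
    Function.Injective (algebraMap ℂ (Module.End ℂ (Fin n → ℂ))) := by
  intro c1 c2 h
  have h2 := congrArg (fun f : Module.End ℂ (Fin n → ℂ) => f (fun _ => 1) ⟨0, hn⟩) h
  simpa [Module.algebraMap_end_apply] using h2

/-- central character values of irreducible characters are algebraic integers -/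
theorem isIntegral_centralChar {G : Type*} [Group G] [Finite G] {n : ℕ}
    (ρ : Representation ℂ G (Fin n → ℂ)) (hirr : ρ.IsIrreducible) (g : G) :
    IsIntegral ℤ (centralChar ρ.character g) := by
  classical
  have := Fintype.ofFinite G
  have hn := irr_dim_pos ρ hirr
  set K := Finset.univ.filter (fun x => IsConj g x) with hK
  set T : Module.End ℂ (Fin n → ℂ) := ∑ x ∈ K, ρ x with hT
  have hcomm : ∀ y : G, T ∘ₗ ρ y = ρ y ∘ₗ T := by
    intro y
    show T * ρ y = ρ y * T
    rw [hT, Finset.sum_mul, Finset.mul_sum]
    apply Finset.sum_nbij' (fun x => y⁻¹ * x * y) (fun x => y * x * y⁻¹)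
    · intro x hx
      rw [hK, Finset.mem_filter] at hx ⊢
      refine ⟨Finset.mem_univ _, ?_⟩
      exact hx.2.trans (isConj_iff.2 ⟨y⁻¹, by simp⟩)
    · intro x hx
      rw [hK, Finset.mem_filter] at hx ⊢
      refine ⟨Finset.mem_univ _, ?_⟩
      exact hx.2.trans (isConj_iff.2 ⟨y, rfl⟩)
    · intro x _; group
    · intro x _; group
    · intro x _
      rw [← map_mul, ← map_mul]
      congr 1
      group
  obtain ⟨c, hc⟩ := schur_scalar ρ hirr T hcomm
  have hTint : IsIntegral ℤ T :=
    isIntegral_of_mem_span ρ T (Submodule.sum_mem _ (fun x _ => Submodule.subset_span ⟨x, rfl⟩))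
  have hcint : IsIntegral ℤ c := by
    rw [hc, ← Algebra.algebraMap_eq_smul_one] at hTint
    exact (isIntegral_algebraMap_iff (algebraMap_end_injective hn)).1 hTint
  have htr : LinearMap.trace ℂ _ T = c * n := by
    rw [hc, map_smul, LinearMap.trace_one, Module.finrank_fin_fun, smul_eq_mul]
  have htr2 : LinearMap.trace ℂ _ T = K.card * ρ.character g := by
    rw [hT, map_sum]
    have : ∀ x ∈ K, LinearMap.trace ℂ _ (ρ x) = ρ.character g := by
      intro x hx
      rw [hK, Finset.mem_filter] at hx
      obtain ⟨y, hy⟩ := isConj_iff.1 hx.2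
      rw [← hy]
      exact Representation.char_conj ρ g y
    rw [Finset.sum_congr rfl this, Finset.sum_const, nsmul_eq_mul]
  have hnC : (n : ℂ) ≠ 0 := by exact_mod_cast hn.ne'
  have hcval : centralChar ρ.character g = c := by
    unfold centralChar
    rw [char_one_fin, ← card_conj_filter g, ← hK]
    rw [htr] at htr2
    field_simp
    rw [← htr2]; ring
  rw [hcval]
  exact hcint

end Cfsg.Agent.Lib.Helper78
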