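import Mathlib
import Cfsg.Prelude.Def_Blocks

set_option autoImplicit false

namespace Cfsg.Agent.Lib.Helper78

open Cfsg

/-- a natural number prime to `p` is outside `M` -/
theorem natCast_not_mem {p : ℕ} {M : Ideal AlgInt} (hM : IsPModular p M) {c : ℕ}
    (hc : ¬ p ∣ c) : (c : AlgInt) ∉ M := by
  obtain ⟨hp, hmax, hpM⟩ := hM
  intro hcM
  have hcop : Nat.Coprime p c := (Nat.Prime.coprime_iff_not_dvd hp).2 hc
  have h1 : ((Nat.gcd p c : ℤ) : AlgInt) ∈ M := by
    rw [Nat.gcd_eq_gcd_ab]
    push_cast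
    exact M.add_mem (M.mul_mem_right _ hpM) (M.mul_mem_right _ hcM)
  rw [hcop] at h1
  apply hmax.ne_top
  rw [Ideal.eq_top_iff_one]
  simpa using h1

theorem memLocalIdeal_zero {p : ℕ} {M : Ideal AlgInt} (hM : IsPModular p M) :
    MemLocalIdeal M 0 := by
  refine ⟨0, 1, M.zero_mem, ?_, by simp⟩
  intro h
  exact hM.2.1.ne_top ((Ideal.eq_top_iff_one M).2 h)

theorem memLocalIdeal_add {p : ℕ} {M : Ideal AlgInt} (hM : IsPModular p M) {x y : ℂ}
    (hx : MemLocalIdeal M x) (hy : MemLocalIdeal M y) : MemLocalIdeal M (x + y) := by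
  obtain ⟨a, b, ha, hb, rfl⟩ := hx
  obtain ⟨a', b', ha', hb', rfl⟩ := hy
  have hprime : M.IsPrime := hM.2.1.isPrime
  have hb0 : (b : ℂ) ≠ 0 := by
    intro h
    apply hb
    have : b = 0 := Subtype.ext h
    rw [this]; exact M.zero_mem
  have hb0' : (b' : ℂ) ≠ 0 := by
    intro h
    apply hb'
    have : b' = 0 := Subtype.ext h
    rw [this]; exact M.zero_mem
  refine ⟨a * b' + a' * b, b * b', M.add_mem (M.mul_mem_right _ ha) (M.mul_mem_right _ ha'), ?_, ?_⟩
  · intro h
    rcases hprime.mem_or_mem h with h | h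
    · exact hb h
    · exact hb' h
  · push_cast
    field_simp

theorem memLocalIdeal_mul_int {M : Ideal AlgInt} {x z : ℂ}
    (hz : IsIntegral ℤ z) (hx : MemLocalIdeal M x) : MemLocalIdeal M (z * x) := by
  obtain ⟨a, b, ha, hb, rfl⟩ := hx
  refine ⟨⟨z, hz⟩ * a, b, M.mul_mem_left _ ha, hb, ?_⟩
  push_cast
  ring

theorem memLocalIdeal_neg {M : Ideal AlgInt} {x : ℂ}
    (hx : MemLocalIdeal M x) : MemLocalIdeal M (-x) := by
  have := memLocalIdeal_mul_int (M := M) (z := -1) (isIntegral_one.neg) hx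
  simpa using this

theorem memLocalIdeal_sub {p : ℕ} {M : Ideal AlgInt} (hM : IsPModular p M) {x y : ℂ}
    (hx : MemLocalIdeal M x) (hy : MemLocalIdeal M y) : MemLocalIdeal M (x - y) := by
  rw [sub_eq_add_neg]
  exact memLocalIdeal_add hM hx (memLocalIdeal_neg hy)

theorem memLocalIdeal_sum {p : ℕ} {M : Ideal AlgInt} (hM : IsPModular p M) {ι : Type*}
    (s : Finset ι) (f : ι → ℂ) (h : ∀ i ∈ s, MemLocalIdeal M (f i)) :
    MemLocalIdeal M (∑ i ∈ s, f i) := by
  classical
  induction s using Finset.induction_on with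
  | empty => simpa using memLocalIdeal_zero hM
  | insert a s ha ih =>
    rw [Finset.sum_insert ha]
    exact memLocalIdeal_add hM (h a (Finset.mem_insert_self a s))
      (ih (fun i hi => h i (Finset.mem_insert_of_mem hi)))

/-- cancel a natural number prime to `p` -/
theorem memLocalIdeal_of_natCast_mul {p : ℕ} {M : Ideal AlgInt} (hM : IsPModular p M) {c : ℕ}
    (hc : ¬ p ∣ c) {x : ℂ} (hx : MemLocalIdeal M ((c : ℂ) * x)) : MemLocalIdeal M x := by
  obtain ⟨a, b, ha, hb, hab⟩ := hx
  have hprime : M.IsPrime := hM.2.1.isPrime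
  have hcM := natCast_not_mem hM hc
  have hc0 : (c : ℂ) ≠ 0 := by
    intro h
    have : c = 0 := by exact_mod_cast h
    exact hc (this ▸ dvd_zero p)
  have hb0 : (b : ℂ) ≠ 0 := by
    intro h
    apply hb
    have : b = 0 := Subtype.ext h
    rw [this]; exact M.zero_mem
  refine ⟨a, b * (c : AlgInt), ha, ?_, ?_⟩
  · intro h
    rcases hprime.mem_or_mem h with h | h
    · exact hb h
    · exact hcM h
  · push_cast
    field_simp
    field_simp at hab
    linear_combination hab

/-- the number `1` is not in the local ideal -/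
theorem not_memLocalIdeal_one {M : Ideal AlgInt} :
    ¬ MemLocalIdeal M 1 := by
  rintro ⟨a, b, ha, hb, hab⟩
  have hb0 : (b : ℂ) ≠ 0 := by
    intro h
    apply hb
    have : b = 0 := Subtype.ext h
    rw [this]; exact M.zero_mem
  have : a = b := by
    apply Subtype.ext
    field_simp at hab
    exact hab
  exact hb (this ▸ ha)

/-- a ratio of naturals in the local ideal has numerator divisible by `p` -/
theorem dvd_of_memLocalIdeal_div {p : ℕ} {M : Ideal AlgInt} (hM : IsPModular p M) {N n : ℕ}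
    (hn : n ≠ 0) (h : MemLocalIdeal M ((N : ℂ) / (n : ℂ))) : p ∣ N := by
  by_contra hN
  obtain ⟨a, b, ha, hb, hab⟩ := h
  have hprime : M.IsPrime := hM.2.1.isPrime
  have hb0 : (b : ℂ) ≠ 0 := by
    intro h
    apply hb
    have : b = 0 := Subtype.ext h
    rw [this]; exact M.zero_mem
  have hn0 : (n : ℂ) ≠ 0 := by exact_mod_cast hn
  have key : (N : AlgInt) * b = (n : AlgInt) * a := by
    apply Subtype.ext
    push_cast
    field_simp at hab
    linear_combination -hab
  have hmem : (N : AlgInt) * b ∈ M := by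
    rw [key]; exact M.mul_mem_left _ ha
  rcases hprime.mem_or_mem hmem with h | h
  · exact natCast_not_mem hM hN h
  · exact hb h

/-- a ratio of naturals with numerator divisible by `p` and denominator prime to `p` -/
theorem memLocalIdeal_natCast_div {p : ℕ} {M : Ideal AlgInt} (hM : IsPModular p M) {A u : ℕ}
    (hA : p ∣ A) (hu : ¬ p ∣ u) : MemLocalIdeal M ((A : ℂ) / (u : ℂ)) := by
  refine ⟨(A : AlgInt), (u : AlgInt), ?_, natCast_not_mem hM hu, by push_cast; rfl⟩
  obtain ⟨k, rfl⟩ := hA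
  push_cast
  exact M.mul_mem_right _ hM.2.2

end Cfsg.Agent.Lib.Helper78
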