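import Mathlib
import Cfsg.Prelude.Def_Blocks
import Cfsg.Agent.Lib.Helper78.CharBasic
import Cfsg.Agent.Lib.Helper78.LocalIdeal
import Cfsg.Agent.Lib.Helper77.Degree

/-!
# The sum of the solutions of `g ^ p = 1` in a group with a central element of order `p`

For an irreducible representation of a finite group `K` having a central element `z` of order `p`,
the central character of the sum of all `k` with `k ^ p = 1` lies in the local ideal.
-/

set_option autoImplicit false
set_option linter.unusedSectionVars false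

namespace Cfsg.Agent.Lib.Helper78

open Cfsg Cfsg.Agent.Lib.Helper16 Cfsg.Agent.Lib.Helper77

/-- A sum of `ρ g` over a set stable under multiplication by an element `z` of order `p` in the
kernel is `p` times an element of the integral span of the image of `ρ`. -/
theorem sum_orbit_span {G : Type*} [Group G] [Fintype G] [DecidableEq G] {V : Type*}
    [AddCommGroup V] [Module ℂ V] (ρ : Representation ℂ G V) (z : G) (p : ℕ) (hp : 0 < p)
    (hz : orderOf z = p) (hρz : ρ z = 1) :
    ∀ T : Finset G, (∀ g, z * g ∈ T ↔ g ∈ T) →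
      ∃ A' ∈ Submodule.span ℤ (Set.range ρ), ∑ g ∈ T, ρ g = (p : ℤ) • A' := by
  classical
  intro T
  induction T using Finset.strongInduction with
  | H T ih =>
    intro hT
    rcases T.eq_empty_or_nonempty with rfl | ⟨g₀, hg₀⟩
    · exact ⟨0, zero_mem _, by simp⟩
    · obtain ⟨O, hOdef⟩ : ∃ O : Finset G, O = Finset.univ.filter (fun g => ∃ i : ℕ, g = z ^ i * g₀) :=
        ⟨_, rfl⟩
      have hOmem : ∀ g, g ∈ O ↔ ∃ i : ℕ, g = z ^ i * g₀ := by
        intro g; rw [hOdef]; simp
      have hO_sub : O ⊆ T := by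
        intro g hg
        obtain ⟨i, rfl⟩ := (hOmem g).1 hg
        induction i with
        | zero => simpa using hg₀
        | succ i ih2 =>
          rw [pow_succ', mul_assoc]
          exact (hT _).2 (ih2 ((hOmem _).2 ⟨i, rfl⟩))
      have hO_stable : ∀ g, z * g ∈ O ↔ g ∈ O := by
        intro g
        rw [hOmem, hOmem]
        constructor
        · rintro ⟨i, hi⟩
          refine ⟨i + (p - 1), ?_⟩
          have e : z * (z ^ (i + (p - 1)) * g₀) = z ^ i * g₀ := by
            rw [← mul_assoc, ← pow_succ', show i + (p - 1) + 1 = i + p by omega, pow_add, ← hz,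
              pow_orderOf_eq_one, mul_one]
          exact mul_left_cancel (hi.trans e.symm)
        · rintro ⟨i, rfl⟩
          exact ⟨i + 1, by rw [pow_succ', mul_assoc]⟩
      have hg₀O : g₀ ∈ O := (hOmem g₀).2 ⟨0, by simp⟩
      have hsdiff : T \ O ⊂ T := Finset.sdiff_ssubset hO_sub ⟨g₀, hg₀O⟩
      obtain ⟨A'', hA'', hsum⟩ := ih (T \ O) hsdiff (fun g => by
        rw [Finset.mem_sdiff, Finset.mem_sdiff, hT g, hO_stable g])
      have hOeq : O = (Finset.range p).image (fun i => z ^ i * g₀) := by
        ext g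
        rw [hOmem, Finset.mem_image]
        constructor
        · rintro ⟨i, rfl⟩
          exact ⟨i % p, Finset.mem_range.2 (Nat.mod_lt _ hp), by rw [← hz, pow_mod_orderOf]⟩
        · rintro ⟨i, -, rfl⟩
          exact ⟨i, rfl⟩
      have hOcard : O.card = p := by
        rw [hOeq, Finset.card_image_of_injOn, Finset.card_range]
        intro i hi j hj hij
        have hij' : z ^ i = z ^ j := mul_right_cancel hij
        have hi' : i < orderOf z := by rw [hz]; exact Finset.mem_range.1 hi
        have hj' : j < orderOf z := by rw [hz]; exact Finset.mem_range.1 hj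
        exact pow_injOn_Iio_orderOf hi' hj' hij'
      have hOsum : ∑ g ∈ O, ρ g = (p : ℤ) • ρ g₀ := by
        have h1 : ∀ g ∈ O, ρ g = ρ g₀ := by
          intro g hg
          obtain ⟨i, rfl⟩ := (hOmem g).1 hg
          rw [map_mul, map_pow, hρz, one_pow, one_mul]
        rw [Finset.sum_congr rfl h1, Finset.sum_const, hOcard, natCast_zsmul]
      refine ⟨ρ g₀ + A'', add_mem (Submodule.subset_span ⟨g₀, rfl⟩) hA'', ?_⟩
      rw [← Finset.sum_sdiff hO_sub, hsum, hOsum, smul_add, add_comm]

variable {M : Ideal Cfsg.AlgInt}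

open scoped Classical in
/-- In a finite group with a central element of order `p`, the central character of an
irreducible representation on the sum of all solutions of `k ^ p = 1` lies in the local ideal. -/
theorem memLocalIdeal_sum_pow_eq_one {K : Type*} [Group K] [Fintype K] {p : ℕ}
    (hM : Cfsg.IsPModular p M) {n : ℕ} (ρ : Representation ℂ K (Fin n → ℂ))
    (hirr : ρ.IsIrreducible) (z : K) (hzc : ∀ g, z * g = g * z) (hz : orderOf z = p) :
    MemLocalIdeal M ((∑ k : K, (if k ^ p = 1 then (1 : ℂ) else 0) * ρ.character k) /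
      ρ.character 1) := by
  classical
  have hP := isPrime_of_isPModular hM
  have hp : p.Prime := hM.1
  have hn := irr_dim_pos ρ hirr
  have hnC : (n : ℂ) ≠ 0 := by exact_mod_cast hn.ne'
  obtain ⟨T, hTdef⟩ : ∃ T : Finset K, T = Finset.univ.filter (fun k : K => k ^ p = 1) := ⟨_, rfl⟩
  have hTmem : ∀ g, g ∈ T ↔ g ^ p = 1 := by intro g; rw [hTdef]; simp
  obtain ⟨A, hA⟩ : ∃ A : Module.End ℂ (Fin n → ℂ), A = ∑ g ∈ T, ρ g := ⟨_, rfl⟩
  have hcomm : ∀ y : K, A ∘ₗ ρ y = ρ y ∘ₗ A := by
    intro y
    show A * ρ y = ρ y * A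
    rw [hA, Finset.sum_mul, Finset.mul_sum]
    apply Finset.sum_nbij' (fun x => y⁻¹ * x * y) (fun x => y * x * y⁻¹)
    · intro x hx
      rw [hTmem] at hx ⊢
      have : y⁻¹ * x * y = y⁻¹ * x * y⁻¹⁻¹ := by rw [inv_inv]
      rw [this, conj_pow, hx]; group
    · intro x hx
      rw [hTmem] at hx ⊢
      rw [conj_pow, hx]; group
    · intro x _; group
    · intro x _; group
    · intro x _
      rw [← map_mul, ← map_mul]
      congr 1
      group
  obtain ⟨c, hc⟩ := schur_scalar ρ hirr A hcomm
  have hzcomm : ∀ y : K, ρ z ∘ₗ ρ y = ρ y ∘ₗ ρ z := by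
    intro y
    show ρ z * ρ y = ρ y * ρ z
    rw [← map_mul, ← map_mul, hzc]
  obtain ⟨l, hl⟩ := schur_scalar ρ hirr (ρ z) hzcomm
  have hT : ∀ g, z * g ∈ T ↔ g ∈ T := by
    intro g
    rw [hTmem, hTmem]
    have hcm : Commute z g := hzc g
    rw [hcm.mul_pow, ← hz, pow_orderOf_eq_one, one_mul]
  have hzA : ρ z * A = A := by
    rw [hA, Finset.mul_sum]
    apply Finset.sum_nbij' (fun x => z * x) (fun x => z⁻¹ * x)
    · intro x hx; exact (hT x).2 hx
    · intro x hx
      apply (hT _).1
      rw [mul_inv_cancel_left]; exact hx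
    · intro x _; group
    · intro x _; group
    · intro x _
      rw [← map_mul]
  have hlc : l * c = c := by
    rw [hc, hl] at hzA
    have h2 : (l * c) • (1 : Module.End ℂ (Fin n → ℂ)) = c • 1 := by
      rw [← hzA, smul_mul_smul_comm, mul_one]
    have h3 := congrArg (fun f : Module.End ℂ (Fin n → ℂ) => f (fun _ => 1) ⟨0, hn⟩) h2
    simpa using h3
  have htr : LinearMap.trace ℂ _ A = c * n := by
    rw [hc, map_smul, LinearMap.trace_one, Module.finrank_fin_fun, smul_eq_mul]
  have htr2 : LinearMap.trace ℂ _ A =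
      ∑ k : K, (if k ^ p = 1 then (1 : ℂ) else 0) * ρ.character k := by
    rw [hA, map_sum, hTdef, Finset.sum_filter]
    refine Finset.sum_congr rfl fun k _ => ?_
    by_cases hk : k ^ p = 1
    · rw [if_pos hk, if_pos hk, one_mul]; rfl
    · rw [if_neg hk, if_neg hk, zero_mul]
  have hval : (∑ k : K, (if k ^ p = 1 then (1 : ℂ) else 0) * ρ.character k) / ρ.character 1
      = c := by
    rw [← htr2, htr, char_one_fin]
    field_simp
  rw [hval]
  by_cases hl1 : l = 1
  · have hρz : ρ z = 1 := by rw [hl, hl1, one_smul]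
    obtain ⟨A', hA', hsum⟩ := sum_orbit_span ρ z p hp.pos hz hρz T hT
    have hA'int : IsIntegral ℤ A' := isIntegral_of_mem_span ρ A' hA'
    have hpC : (p : ℂ) ≠ 0 := by exact_mod_cast hp.ne_zero
    have hA'eq : A' = (c / p) • (1 : Module.End ℂ (Fin n → ℂ)) := by
      rw [← hA, hc] at hsum
      have h4 : (p : ℂ) • A' = c • (1 : Module.End ℂ (Fin n → ℂ)) := by
        rw [hsum]
        rw [← Int.cast_smul_eq_zsmul ℂ (p : ℤ) A']
        simp
      calc A' = (p : ℂ)⁻¹ • ((p : ℂ) • A') := by rw [smul_smul, inv_mul_cancel₀ hpC, one_smul]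
        _ = (c / p) • (1 : Module.End ℂ (Fin n → ℂ)) := by
          rw [h4, smul_smul]; congr 1; field_simp
    have hcint : IsIntegral ℤ (c / p) := by
      rw [hA'eq, ← Algebra.algebraMap_eq_smul_one] at hA'int
      exact (isIntegral_algebraMap_iff (algebraMap_end_injective hn)).1 hA'int
    have hcp : c = (p : ℂ) * (c / p) := by field_simp
    rw [hcp]
    exact memLocalIdeal_mul_right hP ((memLocalIdeal_natCast_iff hM p).mpr dvd_rfl)
      (memLocalRing_of_isIntegral' hP hcint)
  · have h0 : c = 0 := by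
      have h5 : (l - 1) * c = 0 := by rw [sub_mul, hlc, one_mul, sub_self]
      rcases mul_eq_zero.1 h5 with h6 | h6
      · exact absurd (sub_eq_zero.1 h6) hl1
      · exact h6
    rw [h0]
    exact Cfsg.Agent.Lib.Helper16.memLocalIdeal_zero hP

end Cfsg.Agent.Lib.Helper78
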