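import Mathlib
import Cfsg.Prelude.Def_Blocks
import Cfsg.Agent.Lib.Helper16.FirstMain2
import Cfsg.Agent.Lib.Helper16.Cover
import Cfsg.Agent.Lib.Helper77.SubBlock
import Cfsg.Agent.S0919
import Cfsg.Agent.S0964
import Cfsg.Agent.S0965

/-!
# The extended first main theorem

Blocks of `P C_G(P)` inducing a block with defect group `P`: defect groups, transitivity of
block induction, conjugacy under the normalizer.
-/

set_option autoImplicit false

namespace Cfsg.Agent.Lib.Helper78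

section
variable {G : Type*} [Group G] [Fintype G] {M : Ideal Cfsg.AlgInt}

/-- a block of `H` (with `P ≤ H ≤ N_G(P)`) inducing a block with defect group `P` has defect
group `P`. -/
theorem efm_isDefectGroup {p : ℕ} [Fact p.Prime] (hM : Cfsg.IsPModular p M)
    (B : Set (Cfsg.IrrCharacter G)) (hB : Cfsg.IsPBlock M B) (P : Subgroup G)
    (hP : Cfsg.IsDefectGroup p M B P) (H : Subgroup G) (hPH : P ≤ H)
    (hHN : H ≤ Subgroup.normalizer (P : Set G)) (b : Set (Cfsg.IrrCharacter H))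
    (hind : Cfsg.IsInducedBlock M H b B) :
    Cfsg.IsDefectGroup p M b (P.subgroupOf H) := by
  classical
  have hMp := Cfsg.Agent.Lib.Helper16.isPrime_of_isPModular hM
  haveI : Fintype H := Fintype.ofFinite _
  have hb := hind.1
  have hPp := Cfsg.Agent.Lib.Helper16.isPGroup_of_isDefectGroup hP
  obtain ⟨g0, hg0, hg0P, Q, hQ⟩ := Cfsg.Agent.Lib.Helper16.exists_isDefectClass_mem_centralizer hP
  obtain ⟨ξ, hξ⟩ := Cfsg.Agent.Lib.Helper16.IsPBlock.nonempty hMp hb
  obtain ⟨χ, hχ⟩ := Cfsg.Agent.Lib.Helper16.IsPBlock.nonempty hMp hB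
  obtain ⟨Db, hDb⟩ := Cfsg.Agent.Lib.Helper77.exists_isDefectGroup p hMp b hb
  haveI hnorm : (P.subgroupOf H).Normal :=
    (Subgroup.normal_subgroupOf_iff_le_normalizer hPH).mpr hHN
  have hle : P.subgroupOf H ≤ Db :=
    Cfsg.Agent.Lib.Helper77.normal_pgroup_le_of_isDefectGroup hM (P.subgroupOf H)
      hPp.comap_subtype hb hDb
  have h1 : ¬ Cfsg.MemLocalIdeal M (Cfsg.inducedCentralChar H (ξ : H → ℂ) g0) := by
    intro h
    apply hg0.2.2 χ hχ
    have h2 := hind.2.2 ξ hξ χ hχ g0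
    have h3 := Cfsg.Agent.Lib.Helper16.memLocalIdeal_sub hMp h h2
    rwa [sub_sub_cancel] at h3
  rw [← Cfsg.Agent.Lib.Helper16.omega_resFun_classInd] at h1
  obtain ⟨l, hl1, hl2⟩ := Cfsg.Agent.Lib.Helper16.exists_not_memLocalIdeal_of_omega hMp ξ
    (Cfsg.Agent.Lib.Helper16.isRClass_resFun H
      (Cfsg.Agent.Lib.Helper16.isRClass_classInd hMp g0)) h1
  have hconj : IsConj g0 (l : G) := by
    by_contra hc
    apply hl1
    unfold Cfsg.Agent.Lib.Helper16.resFun Cfsg.Agent.Lib.Helper16.classInd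
    rw [if_neg hc]
    exact Cfsg.Agent.Lib.Helper16.memLocalIdeal_zero hMp
  obtain ⟨h, hh, S, rfl⟩ := hDb
  obtain ⟨x, Q', hxQ'⟩ := Cfsg.Agent.Lib.Helper77.minmax_b hM b hb h hh S l ⟨ξ, hξ, hl2⟩
  have hc1 : Nat.card ((S : Subgroup (Subgroup.centralizer ({h} : Set H))).map
      (Subgroup.centralizer ({h} : Set H)).subtype) ≤
      Nat.card ((Q' : Subgroup (Subgroup.centralizer ({l} : Set H))).map
        (Subgroup.centralizer ({l} : Set H)).subtype) := by
    have := Subgroup.card_le_of_le hxQ'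
    rwa [Cfsg.Agent.Lib.Helper77.card_map_conj] at this
  obtain ⟨c, hc⟩ := isConj_iff.mp hconj
  obtain ⟨R, hR⟩ : ∃ R : Subgroup G, R = (((Q' : Subgroup (Subgroup.centralizer ({l} : Set H))).map
        (Subgroup.centralizer ({l} : Set H)).subtype).map H.subtype).map
        (MulAut.conj c⁻¹).toMonoidHom := ⟨_, rfl⟩
  have hRcard : Nat.card R = Nat.card ((Q' : Subgroup (Subgroup.centralizer ({l} : Set H))).map
        (Subgroup.centralizer ({l} : Set H)).subtype) := by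
    rw [hR, Subgroup.card_map_of_injective (MulAut.conj c⁻¹).injective,
      Subgroup.card_map_of_injective (Subgroup.subtype_injective _)]
  have hRp : IsPGroup p R := by
    rw [hR]
    exact ((Q'.isPGroup'.map _).map _).map _
  have hRc : ∀ r ∈ R, r * g0 = g0 * r := by
    intro r hr
    rw [hR] at hr
    obtain ⟨r1, ⟨r2, ⟨r3, hr3, rfl⟩, rfl⟩, rfl⟩ := hr
    have hcomm : (r3 : H) * l = l * (r3 : H) :=
      (Subgroup.mem_centralizer_iff.mp r3.2 l (Set.mem_singleton l)).symm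
    have hcomm' : ((r3 : H) : G) * (l : G) = (l : G) * ((r3 : H) : G) := by
      have := congrArg (Subtype.val) hcomm
      simpa using this
    simp only [MulEquiv.coe_toMonoidHom, MulAut.conj_apply, Subgroup.coe_subtype, inv_inv]
    rw [← hc] at hcomm'
    calc c⁻¹ * ((r3 : H) : G) * c * g0 = c⁻¹ * (((r3 : H) : G) * (c * g0 * c⁻¹)) * c := by group
      _ = c⁻¹ * ((c * g0 * c⁻¹) * ((r3 : H) : G)) * c := by rw [hcomm']
      _ = g0 * (c⁻¹ * ((r3 : H) : G) * c) := by group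
  obtain ⟨Q2, hQ2⟩ := Cfsg.Agent.Lib.Helper77.exists_sylow_centralizer_ge p R hRp g0 hRc
  have hc2 : Nat.card R ≤ Nat.card P := by
    have h5 := Subgroup.card_le_of_le hQ2
    rw [Cfsg.Agent.Lib.Helper77.card_sylow_map_eq p g0 Q2 Q, ← hQ] at h5
    exact h5
  have hc3 : Nat.card (P.subgroupOf H) = Nat.card P :=
    Nat.card_congr (Subgroup.subgroupOfEquivOfLe hPH).toEquiv
  have heq : P.subgroupOf H = (S : Subgroup (Subgroup.centralizer ({h} : Set H))).map
      (Subgroup.centralizer ({h} : Set H)).subtype := by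
    apply Subgroup.eq_of_le_of_card_ge hle
    rw [hc3]
    exact hc1.trans (hRcard ▸ hc2)
  exact ⟨h, hh, S, heq⟩

/-- uniqueness of the induced block -/
theorem efm_unique (hM : M.IsPrime) {H : Subgroup G} {b : Set (Cfsg.IrrCharacter H)}
    {B B' : Set (Cfsg.IrrCharacter G)} (h1 : Cfsg.IsInducedBlock M H b B)
    (h2 : Cfsg.IsInducedBlock M H b B') : B = B' := by
  obtain ⟨ξ, hξ⟩ := Cfsg.Agent.Lib.Helper16.IsPBlock.nonempty hM h1.1
  obtain ⟨χ, hχ⟩ := Cfsg.Agent.Lib.Helper16.IsPBlock.nonempty hM h1.2.1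
  obtain ⟨χ', hχ'⟩ := Cfsg.Agent.Lib.Helper16.IsPBlock.nonempty hM h2.2.1
  rw [Cfsg.Agent.Lib.Helper16.IsPBlock.eq_blockOf hM h1.2.1 hχ,
    Cfsg.Agent.Lib.Helper16.IsPBlock.eq_blockOf hM h2.2.1 hχ']
  apply Cfsg.Agent.Lib.Helper16.blockOf_eq_of_sameBlock hM
  intro g
  have a1 := h1.2.2 ξ hξ χ hχ g
  have a2 := h2.2.2 ξ hξ χ' hχ' g
  have a3 := Cfsg.Agent.Lib.Helper16.memLocalIdeal_sub hM a2 a1
  rwa [sub_sub_sub_cancel_left] at a3

/-- transitivity of block induction -/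
theorem efm_trans (hM : M.IsPrime) {K N : Subgroup G} (hKN : K ≤ N)
    (b : Set (Cfsg.IrrCharacter K)) (B2 : Set (Cfsg.IrrCharacter N))
    (B3 : Set (Cfsg.IrrCharacter G))
    (h1 : Cfsg.IsInducedBlock M (K.subgroupOf N) (Cfsg.Agent.Lib.Helper77.pullSet hKN b) B2)
    (h2 : Cfsg.IsInducedBlock M N B2 B3) : Cfsg.IsInducedBlock M K b B3 := by
  classical
  haveI : Fintype N := Fintype.ofFinite _
  haveI : Fintype K := Fintype.ofFinite _
  haveI : Fintype (K.subgroupOf N) := Fintype.ofFinite _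
  have hb : Cfsg.IsPBlock M b :=
    (Cfsg.Agent.Lib.Helper77.isPBlock_mapSet_iff hM _ b).mp h1.1
  refine ⟨hb, h2.2.1, ?_⟩
  intro θ hθ χ3 hχ3 g
  obtain ⟨χ2, hχ2⟩ := Cfsg.Agent.Lib.Helper16.IsPBlock.nonempty hM h2.1
  have hθt : Cfsg.Agent.Lib.Helper77.mapIrr (Subgroup.subgroupOfEquivOfLe hKN).symm θ ∈
      Cfsg.Agent.Lib.Helper77.pullSet hKN b := ⟨θ, hθ, rfl⟩
  have A := Cfsg.Agent.Lib.Helper16.omega_resFun_sub hM (K.subgroupOf N)
    (Cfsg.Agent.Lib.Helper77.mapIrr (Subgroup.subgroupOfEquivOfLe hKN).symm θ :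
      (K.subgroupOf N) → ℂ) χ2
    (h1.2.2 _ hθt χ2 hχ2) (α := Cfsg.Agent.Lib.Helper16.resFun N
      (Cfsg.Agent.Lib.Helper16.classInd g))
    (Cfsg.Agent.Lib.Helper16.isRClass_resFun N (Cfsg.Agent.Lib.Helper16.isRClass_classInd hM g))
  have Bc := h2.2.2 χ2 hχ2 χ3 hχ3 g
  rw [Cfsg.Agent.Lib.Helper16.omega_resFun_classInd] at A
  have e : Cfsg.Agent.Lib.Helper16.omega
      (Cfsg.Agent.Lib.Helper77.mapIrr (Subgroup.subgroupOfEquivOfLe hKN).symm θ :
        (K.subgroupOf N) → ℂ)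
      (Cfsg.Agent.Lib.Helper16.resFun (K.subgroupOf N)
        (Cfsg.Agent.Lib.Helper16.resFun N (Cfsg.Agent.Lib.Helper16.classInd g))) =
      Cfsg.inducedCentralChar K (θ : K → ℂ) g := by
    rw [← Cfsg.Agent.Lib.Helper16.omega_resFun_classInd]
    unfold Cfsg.Agent.Lib.Helper16.omega
    refine Fintype.sum_equiv (Subgroup.subgroupOfEquivOfLe hKN).toEquiv _ _ ?_
    intro k
    rw [Cfsg.Agent.Lib.Helper77.mapIrr_apply, Cfsg.Agent.Lib.Helper77.mapIrr_apply, map_one]
    rfl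
  rw [e] at A
  have := Cfsg.Agent.Lib.Helper16.memLocalIdeal_add hM A Bc
  rwa [sub_add_sub_cancel] at this

/-- blocks of `L` (with `P C_G(P) ≤ L ≤ N_G(P)`, `L` normal in `N_G(P)`) inducing the same block
with defect group `P` are conjugate under `N_G(P)`. -/
theorem efm_conj {p : ℕ} [Fact p.Prime] (hM : Cfsg.IsPModular p M)
    (B : Set (Cfsg.IrrCharacter G)) (hB : Cfsg.IsPBlock M B) (P : Subgroup G)
    (hP : Cfsg.IsDefectGroup p M B P) (L : Subgroup G) (hPL : P ≤ L)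
    (hCL : Subgroup.centralizer (P : Set G) ≤ L) (hLN : L ≤ Subgroup.normalizer (P : Set G))
    (hLnorm : Subgroup.normalizer (P : Set G) ≤ Subgroup.normalizer (L : Set G))
    (b b' : Set (Cfsg.IrrCharacter L)) (h1 : Cfsg.IsInducedBlock M L b B)
    (h2 : Cfsg.IsInducedBlock M L b' B) :
    ∃ n ∈ Subgroup.normalizer (P : Set G), ∀ θ ∈ b, ∃ θ' ∈ b', ∀ x : L,
      ∀ hx : n * (x : G) * n⁻¹ ∈ L, (θ' : L → ℂ) x = (θ : L → ℂ) ⟨n * (x : G) * n⁻¹, hx⟩ := by
  classical
  have hMp := Cfsg.Agent.Lib.Helper16.isPrime_of_isPModular hM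
  have hPp := Cfsg.Agent.Lib.Helper16.isPGroup_of_isDefectGroup hP
  haveI : Fintype (Subgroup.normalizer (P : Set G)) := Fintype.ofFinite _
  haveI : Fintype L := Fintype.ofFinite _
  haveI : Fintype (L.subgroupOf (Subgroup.normalizer (P : Set G))) := Fintype.ofFinite _
  haveI hLn : (L.subgroupOf (Subgroup.normalizer (P : Set G))).Normal :=
    (Subgroup.normal_subgroupOf_iff_le_normalizer hLN).mpr hLnorm
  haveI hPn : (P.subgroupOf (Subgroup.normalizer (P : Set G))).Normal :=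
    (Subgroup.normal_subgroupOf_iff_le_normalizer Subgroup.le_normalizer).mpr le_rfl
  obtain ⟨B1, hB1⟩ := Cfsg.Agent.Lib.Helper16.exists_isInducedBlock_normalizer hM B hB P hP
  have hD1 := (Cfsg.Agent.Lib.Helper16.isDefectGroup_of_isInducedBlock_normalizer hM B hB P hP
    B1 hB1).1
  have hPL' : P.subgroupOf (Subgroup.normalizer (P : Set G)) ≤
      L.subgroupOf (Subgroup.normalizer (P : Set G)) := Subgroup.subgroupOf_mono _ hPL
  have hCL' : Subgroup.centralizer
      ((P.subgroupOf (Subgroup.normalizer (P : Set G)) :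
        Subgroup (Subgroup.normalizer (P : Set G))) : Set (Subgroup.normalizer (P : Set G))) ≤
      L.subgroupOf (Subgroup.normalizer (P : Set G)) := by
    intro x hx
    rw [Subgroup.mem_subgroupOf]
    apply hCL
    rw [Subgroup.mem_centralizer_iff]
    intro y hy
    have := Subgroup.mem_centralizer_iff.mp hx ⟨y, Subgroup.le_normalizer hy⟩
      (Subgroup.mem_subgroupOf.mpr hy)
    exact congrArg Subtype.val this
  have hLN' : L.subgroupOf (Subgroup.normalizer (P : Set G)) ≤ Subgroup.normalizer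
      ((P.subgroupOf (Subgroup.normalizer (P : Set G)) :
        Subgroup (Subgroup.normalizer (P : Set G))) : Set (Subgroup.normalizer (P : Set G))) := by
    have htop := Subgroup.normalizer_eq_top_iff.mpr hPn
    rw [htop]
    exact le_top
  have key : ∀ c : Set (Cfsg.IrrCharacter L), Cfsg.IsInducedBlock M L c B →
      Cfsg.IsInducedBlock M (L.subgroupOf (Subgroup.normalizer (P : Set G)))
        (Cfsg.Agent.Lib.Helper77.pullSet hLN c) B1 := by
    intro c hc
    have hct : Cfsg.IsPBlock M (Cfsg.Agent.Lib.Helper77.pullSet hLN c) :=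
      Cfsg.Agent.Lib.Helper77.isPBlock_pullSet hMp hLN hc.1
    obtain ⟨B2, hB2⟩ := Cfsg.Agent.S0919.result p M hM
      (P.subgroupOf (Subgroup.normalizer (P : Set G)))
      (L.subgroupOf (Subgroup.normalizer (P : Set G))) hPp.comap_subtype hPL' hCL' hLN'
      (Cfsg.Agent.Lib.Helper77.pullSet hLN c) hct
    obtain ⟨B3, hB3⟩ := Cfsg.Agent.S0919.result p M hM P (Subgroup.normalizer (P : Set G)) hPp
      Subgroup.le_normalizer (Subgroup.centralizer_le_normalizer _) le_rfl B2 hB2.2.1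
    have h3 := efm_trans hMp hLN c B2 B3 hB2 hB3
    have e3 : B3 = B := efm_unique hMp h3 hc
    rw [e3] at hB3
    have e2 : B2 = B1 := Cfsg.Agent.Lib.Helper16.firstMain_unique hM P hPp B hB B1 B2 hB1.1 hD1
      hB1 hB3
    rw [e2] at hB2
    exact hB2
  have k1 := key b h1
  have k2 := key b' h2
  have cov : ∀ c : Set (Cfsg.IrrCharacter (L.subgroupOf (Subgroup.normalizer (P : Set G)))),
      Cfsg.IsInducedBlock M (L.subgroupOf (Subgroup.normalizer (P : Set G))) c B1 →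
      ∃ χ ∈ B1, ∃ θ ∈ c, Cfsg.classInner
        (fun n : L.subgroupOf (Subgroup.normalizer (P : Set G)) =>
          (χ : Subgroup.normalizer (P : Set G) → ℂ) n)
        (θ : L.subgroupOf (Subgroup.normalizer (P : Set G)) → ℂ) ≠ 0 := by
    intro c hc
    apply (Cfsg.Agent.S0965.result p M hM (L.subgroupOf (Subgroup.normalizer (P : Set G))) B1
      hB1.1 c hc.1).mpr
    intro χ hχ θ hθ n
    have := Cfsg.Agent.Lib.Helper16.memLocalIdeal_neg (hc.2.2 θ hθ χ hχ
      (n : Subgroup.normalizer (P : Set G)))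
    rwa [neg_sub] at this
  obtain ⟨χ, hχ, θ0, hθ0, hcon⟩ := cov _ k1
  obtain ⟨χ', hχ', ψ, hψ, hcon'⟩ := cov _ k2
  obtain ⟨g, θ', hθ', hconj⟩ := Cfsg.Agent.S0964.result p M hM
    (L.subgroupOf (Subgroup.normalizer (P : Set G))) B1 hB1.1
    (Cfsg.Agent.Lib.Helper77.pullSet hLN b) k1.1 χ hχ θ0 hθ0 hcon χ' hχ' ψ hcon'
  have hgL : (g : G) ∈ Subgroup.normalizer (L : Set G) := hLnorm g.2
  have hψ0 : Cfsg.Agent.Lib.Helper77.mapIrr (Subgroup.subgroupOfEquivOfLe hLN) ψ ∈ b' := by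
    have := (Cfsg.Agent.Lib.Helper77.mem_mapSet_iff _ b' ψ).mp hψ
    simpa using this
  have hθ'0 : Cfsg.Agent.Lib.Helper77.mapIrr (Subgroup.subgroupOfEquivOfLe hLN) θ' ∈ b := by
    have := (Cfsg.Agent.Lib.Helper77.mem_mapSet_iff _ b θ').mp hθ'
    simpa using this
  have hψeq : Cfsg.Agent.Lib.Helper77.mapIrr (Subgroup.subgroupOfEquivOfLe hLN) ψ =
      Cfsg.Agent.Lib.Helper77.mapIrr (Cfsg.Agent.Lib.Helper77.conjAut L (g : G) hgL).symm
        (Cfsg.Agent.Lib.Helper77.mapIrr (Subgroup.subgroupOfEquivOfLe hLN) θ') := by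
    apply Subtype.ext
    funext x
    rw [Cfsg.Agent.Lib.Helper77.mapIrr_apply, Cfsg.Agent.Lib.Helper77.mapIrr_apply,
      Cfsg.Agent.Lib.Helper77.mapIrr_apply, hconj]
    rfl
  refine ⟨(g : G), g.2, ?_⟩
  intro θ hθ
  refine ⟨Cfsg.Agent.Lib.Helper77.mapIrr (Cfsg.Agent.Lib.Helper77.conjAut L (g : G) hgL).symm θ,
    ?_, ?_⟩
  · rw [Cfsg.Agent.Lib.Helper16.IsPBlock.eq_blockOf hMp h2.1 hψ0,
      Cfsg.Agent.Lib.Helper16.mem_blockOf_iff, hψeq,
      Cfsg.Agent.Lib.Helper77.sameBlock_mapIrr_iff]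
    exact Cfsg.Agent.Lib.Helper16.IsPBlock.sameBlock hMp h1.1 hθ'0 hθ
  · intro x hx
    rw [Cfsg.Agent.Lib.Helper77.mapIrr_apply]
    rfl

omit [Fintype G] in
/-- `N_G(P)` normalizes `P C_G(P)` -/
theorem efm_normalizer_le (P : Subgroup G) :
    Subgroup.normalizer (P : Set G) ≤
      Subgroup.normalizer ((P ⊔ Subgroup.centralizer (P : Set G) : Subgroup G) : Set G) := by
  have key : ∀ g ∈ Subgroup.normalizer (P : Set G), ∀ h ∈ P ⊔ Subgroup.centralizer (P : Set G),
      g * h * g⁻¹ ∈ P ⊔ Subgroup.centralizer (P : Set G) := by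
    intro g hg
    have hle : P ⊔ Subgroup.centralizer (P : Set G) ≤
        (P ⊔ Subgroup.centralizer (P : Set G)).comap (MulAut.conj g).toMonoidHom := by
      apply sup_le
      · intro h hh
        rw [Subgroup.mem_comap]
        exact le_sup_left (a := P) ((Subgroup.mem_normalizer_iff.mp hg h).mp hh)
      · intro h hh
        rw [Subgroup.mem_comap]
        apply le_sup_right (a := P)
        rw [Subgroup.mem_centralizer_iff]
        intro y hy
        have hy' : g⁻¹ * y * g ∈ P := (Subgroup.mem_normalizer_iff''.mp hg y).mp hy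
        have := Subgroup.mem_centralizer_iff.mp hh _ hy'
        simp only [MulEquiv.coe_toMonoidHom, MulAut.conj_apply]
        calc y * (g * h * g⁻¹) = g * ((g⁻¹ * y * g) * h) * g⁻¹ := by group
          _ = g * (h * (g⁻¹ * y * g)) * g⁻¹ := by rw [this]
          _ = g * h * g⁻¹ * y := by group
    intro h hh
    exact hle hh
  intro g hg
  rw [Subgroup.mem_normalizer_iff]
  intro h
  constructor
  · exact key g hg h
  · intro hh
    have := key g⁻¹ (inv_mem hg) _ hh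
    simpa [mul_assoc] using this

/-- **Extended first main theorem.** -/
theorem efm_main {p : ℕ} [Fact p.Prime] (hM : Cfsg.IsPModular p M)
    (B : Set (Cfsg.IrrCharacter G)) (hB : Cfsg.IsPBlock M B) (P : Subgroup G)
    (hP : Cfsg.IsDefectGroup p M B P) :
    (∃ b : Set (Cfsg.IrrCharacter ↥(P ⊔ Subgroup.centralizer (P : Set G))),
      Cfsg.IsDefectGroup p M b (P.subgroupOf (P ⊔ Subgroup.centralizer (P : Set G))) ∧
      Cfsg.IsInducedBlock M (P ⊔ Subgroup.centralizer (P : Set G)) b B) ∧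
    ∀ b b' : Set (Cfsg.IrrCharacter ↥(P ⊔ Subgroup.centralizer (P : Set G))),
      Cfsg.IsInducedBlock M (P ⊔ Subgroup.centralizer (P : Set G)) b B →
      Cfsg.IsInducedBlock M (P ⊔ Subgroup.centralizer (P : Set G)) b' B →
      ∃ n ∈ Subgroup.normalizer (P : Set G), ∀ θ ∈ b, ∃ θ' ∈ b',
        ∀ x : ↥(P ⊔ Subgroup.centralizer (P : Set G)),
        ∀ hx : n * (x : G) * n⁻¹ ∈ P ⊔ Subgroup.centralizer (P : Set G),
          (θ' : ↥(P ⊔ Subgroup.centralizer (P : Set G)) → ℂ) x =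
            (θ : ↥(P ⊔ Subgroup.centralizer (P : Set G)) → ℂ) ⟨n * (x : G) * n⁻¹, hx⟩ := by
  classical
  have hPp := Cfsg.Agent.Lib.Helper16.isPGroup_of_isDefectGroup hP
  haveI : Fintype ↥(P ⊔ Subgroup.centralizer (P : Set G)) := Fintype.ofFinite _
  have hLN : P ⊔ Subgroup.centralizer (P : Set G) ≤ Subgroup.normalizer (P : Set G) :=
    sup_le Subgroup.le_normalizer (Subgroup.centralizer_le_normalizer _)
  constructor
  · obtain ⟨g0, hg0, hg0P, -⟩ := Cfsg.Agent.Lib.Helper16.exists_isDefectClass_mem_centralizer hP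
    obtain ⟨ξ, hξ, -⟩ := Cfsg.Agent.Lib.Helper16.exists_isInducedBlock hM P
      (P ⊔ Subgroup.centralizer (P : Set G)) hPp le_sup_left le_sup_right hLN B hB g0 hg0P
      hg0.2.1
    exact ⟨_, efm_isDefectGroup hM B hB P hP _ le_sup_left hLN _ hξ, hξ⟩
  · intro b b' h1 h2
    exact efm_conj hM B hB P hP _ le_sup_left le_sup_right hLN (efm_normalizer_le P) b b' h1 h2

end

end Cfsg.Agent.Lib.Helper78
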