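import Mathlib
import Cfsg.Prelude.Def_Blocks
import Cfsg.Agent.Lib.Helper78.BLStar
import Cfsg.Agent.Lib.Helper3.QuatInv

/-!
Products of two conjugates of an involution never lie in suitable `p`-sections, when
`N_G(P)/C_G(P)` has order `3` and acts semiregularly on the abelian Sylow subgroup `P`.
-/

set_option autoImplicit false

namespace Cfsg.Agent.Lib.Helper78

open Cfsg

section inv

variable {G : Type*} [Group G] [Finite G] {p : ℕ} [Fact p.Prime] (P : Sylow p G)

omit [Finite G] [Fact p.Prime] in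
/-- in a subgroup `H ≥ P` with `H ∩ N(P) ≤ C(P)`, the normalizer of `P` centralizes `P` -/
theorem bl_sub_NC (H : Subgroup G) (hle : (P : Subgroup G) ≤ H)
    (hNC : H ⊓ Subgroup.normalizer ((P : Subgroup G) : Set G) ≤
      Subgroup.centralizer ((P : Subgroup G) : Set G)) :
    Subgroup.normalizer (((P.subtype hle : Sylow p H) : Subgroup H) : Set H) ≤
      Subgroup.centralizer (((P.subtype hle : Sylow p H) : Subgroup H) : Set H) := by
  have hP'coe : ((P.subtype hle : Sylow p H) : Subgroup H) = (P : Subgroup G).subgroupOf H :=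
    Sylow.coe_subtype _ _
  intro n hn
  rw [Subgroup.mem_centralizer_iff]
  intro u hu
  have huP : (u : G) ∈ (P : Subgroup G) := by
    have h1 : u ∈ ((P.subtype hle : Sylow p H) : Subgroup H) := hu
    rw [hP'coe, Subgroup.mem_subgroupOf] at h1
    exact h1
  have hnN : (n : G) ∈ Subgroup.normalizer ((P : Subgroup G) : Set G) := by
    rw [Subgroup.mem_normalizer_iff]
    intro g
    constructor
    · intro hg
      have h1 : (⟨g, hle hg⟩ : H) ∈ ((P.subtype hle : Sylow p H) : Subgroup H) := by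
        rw [hP'coe, Subgroup.mem_subgroupOf]
        exact hg
      have h2 := (Subgroup.mem_normalizer_iff.mp hn ⟨g, hle hg⟩).mp h1
      rw [hP'coe, Subgroup.mem_subgroupOf] at h2
      exact h2
    · intro hg
      have hgH : g ∈ H := by
        have h3 := hle hg
        have h4 : g = (n : G)⁻¹ * ((n : G) * g * (n : G)⁻¹) * (n : G) := by group
        rw [h4]
        exact H.mul_mem (H.mul_mem (H.inv_mem n.2) h3) n.2
      have h1 : n * (⟨g, hgH⟩ : H) * n⁻¹ ∈ ((P.subtype hle : Sylow p H) : Subgroup H) := by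
        rw [hP'coe, Subgroup.mem_subgroupOf]
        exact hg
      have h2 := (Subgroup.mem_normalizer_iff.mp hn ⟨g, hgH⟩).mpr h1
      rw [hP'coe, Subgroup.mem_subgroupOf] at h2
      exact h2
  have hnC : (n : G) ∈ Subgroup.centralizer ((P : Subgroup G) : Set G) :=
    hNC (Subgroup.mem_inf.mpr ⟨n.2, hnN⟩)
  apply Subtype.ext
  exact (Subgroup.mem_centralizer_iff.mp hnC) (u : G) huP

/-- the transfer into `P` computes products modulo the normal `p`-complement -/
theorem bl_transfer_prod (H : Subgroup G) (hle : (P : Subgroup G) ≤ H)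
    (hNC : H ⊓ Subgroup.normalizer ((P : Subgroup G) : Set G) ≤
      Subgroup.centralizer ((P : Subgroup G) : Set G))
    (s t h h' y v : G) (hs : s ∈ H) (ht : t ∈ H) (hh : h ∈ H) (hh' : h' ∈ H)
    (hu : h * s * h⁻¹ ∈ (P : Subgroup G)) (hu' : h' * t * h'⁻¹ ∈ (P : Subgroup G))
    (hy : y ∈ (P : Subgroup G)) (hv : v ∈ H) (hvreg : ¬ p ∣ orderOf v) (hst : s * t = y * v) :
    y = (h * s * h⁻¹) * (h' * t * h'⁻¹) := by
  have hp : p.Prime := Fact.out
  have hNC' := bl_sub_NC P H hle hNC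
  have hP'coe : ((P.subtype hle : Sylow p H) : Subgroup H) = (P : Subgroup G).subgroupOf H :=
    Sylow.coe_subtype _ _
  obtain ⟨φ, hφ⟩ : ∃ φ : H →* ((P.subtype hle : Sylow p H) : Subgroup H),
      φ = MonoidHom.transferSylow (P.subtype hle) hNC' := ⟨_, rfl⟩
  have hφcomm : ∀ a b : H, φ (a * b * a⁻¹) = φ b := by
    intro a b
    rw [map_mul, map_mul, map_inv]
    have h1 : ∀ x z : ((P.subtype hle : Sylow p H) : Subgroup H), x * z * x⁻¹ = z := by
      intro x z
      have h2 : (x : H) * z = z * x :=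
        (Subgroup.mem_centralizer_iff.mp (hNC' (Subgroup.le_normalizer z.2))) (x : H) x.2
      apply Subtype.ext
      show (x : H) * z * (x : H)⁻¹ = z
      rw [h2, mul_inv_cancel_right]
    exact h1 _ _
  obtain ⟨S, hS⟩ : ∃ S : H, (S : G) = s := ⟨⟨s, hs⟩, rfl⟩
  obtain ⟨T, hT⟩ : ∃ T : H, (T : G) = t := ⟨⟨t, ht⟩, rfl⟩
  obtain ⟨A, hA⟩ : ∃ A : H, (A : G) = h := ⟨⟨h, hh⟩, rfl⟩
  obtain ⟨A', hA'⟩ : ∃ A' : H, (A' : G) = h' := ⟨⟨h', hh'⟩, rfl⟩
  obtain ⟨V, hV⟩ : ∃ V : H, (V : G) = v := ⟨⟨v, hv⟩, rfl⟩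
  obtain ⟨Y, hY⟩ : ∃ Y : H, (Y : G) = y := ⟨⟨y, hle hy⟩, rfl⟩
  have hST : S * T = Y * V := by
    apply Subtype.ext
    rw [Subgroup.coe_mul, Subgroup.coe_mul, hS, hT, hY, hV]
    exact hst
  have hφV : φ V = 1 := by
    have h1 : orderOf (φ V) ∣ orderOf V := orderOf_map_dvd φ V
    obtain ⟨j, hj⟩ := IsPGroup.iff_orderOf.mp (P.subtype hle).isPGroup' (φ V)
    have hVo : orderOf V = orderOf v := by
      rw [← hV]
      exact (Subgroup.orderOf_coe V).symm
    rcases Nat.eq_zero_or_pos j with h0 | h0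
    · rw [h0, pow_zero] at hj
      exact orderOf_eq_one_iff.mp hj
    · exfalso
      apply hvreg
      rw [← hVo]
      rw [hj] at h1
      exact (dvd_pow_self p h0.ne').trans h1
  have hU : A * S * A⁻¹ ∈ ((P.subtype hle : Sylow p H) : Subgroup H) := by
    rw [hP'coe, Subgroup.mem_subgroupOf]
    rw [Subgroup.coe_mul, Subgroup.coe_mul, Subgroup.coe_inv, hA, hS]
    exact hu
  have hU' : A' * T * A'⁻¹ ∈ ((P.subtype hle : Sylow p H) : Subgroup H) := by
    rw [hP'coe, Subgroup.mem_subgroupOf]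
    rw [Subgroup.coe_mul, Subgroup.coe_mul, Subgroup.coe_inv, hA', hT]
    exact hu'
  have hYm : Y ∈ ((P.subtype hle : Sylow p H) : Subgroup H) := by
    rw [hP'coe, Subgroup.mem_subgroupOf, hY]
    exact hy
  have hker : Y⁻¹ * (A * S * A⁻¹ * (A' * T * A'⁻¹)) ∈ φ.ker := by
    rw [MonoidHom.mem_ker, map_mul, map_mul, hφcomm, hφcomm, map_inv]
    have h3 : φ Y = φ S * φ T := by
      have h4 : Y = S * T * V⁻¹ := by
        rw [hST]
        group
      rw [h4, map_mul, map_mul, map_inv, hφV, inv_one, mul_one]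
    rw [h3]
    group
  have hmemP : Y⁻¹ * (A * S * A⁻¹ * (A' * T * A'⁻¹)) ∈
      ((P.subtype hle : Sylow p H) : Subgroup H) :=
    mul_mem (inv_mem hYm) (mul_mem hU hU')
  have hdisj := MonoidHom.ker_transferSylow_disjoint (P.subtype hle) hNC' _
    (P.subtype hle).isPGroup'
  rw [← hφ] at hdisj
  have h1 : Y⁻¹ * (A * S * A⁻¹ * (A' * T * A'⁻¹)) = 1 :=
    Subgroup.disjoint_def.mp hdisj hker hmemP
  have h2 : Y = A * S * A⁻¹ * (A' * T * A'⁻¹) := by
    rw [inv_mul_eq_one] at h1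
    exact h1
  have h3 := congrArg Subtype.val h2
  rw [Subgroup.coe_mul, Subgroup.coe_mul, Subgroup.coe_mul, Subgroup.coe_inv, Subgroup.coe_mul,
    Subgroup.coe_mul, Subgroup.coe_inv, hA, hS, hA', hT, hY] at h3
  exact h3

omit [Finite G] [Fact p.Prime] in
/-- the centralizer is normal in the normalizer -/
theorem bl_cent_normal (Q : Subgroup G) :
    ((Subgroup.centralizer (Q : Set G)).subgroupOf (Subgroup.normalizer (Q : Set G))).Normal := by
  constructor
  intro c hc n
  rw [Subgroup.mem_subgroupOf] at hc ⊢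
  rw [Subgroup.mem_centralizer_iff]
  intro w hw
  have hw' : (n : G)⁻¹ * w * (n : G) ∈ Q := by
    have h1 := (Subgroup.mem_normalizer_iff.mp (Subgroup.inv_mem _ n.2) w).mp hw
    rw [inv_inv] at h1
    exact h1
  have h2 := (Subgroup.mem_centralizer_iff.mp hc) _ hw'
  show w * ((n : G) * (c : G) * (n : G)⁻¹) = (n : G) * (c : G) * (n : G)⁻¹ * w
  calc w * ((n : G) * (c : G) * (n : G)⁻¹)
      = (n : G) * ((n : G)⁻¹ * w * (n : G) * (c : G)) * (n : G)⁻¹ := by group
    _ = (n : G) * ((c : G) * ((n : G)⁻¹ * w * (n : G))) * (n : G)⁻¹ := by rw [h2]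
    _ = (n : G) * (c : G) * (n : G)⁻¹ * w := by group

/-- no product of two conjugates of the involution `t` has its `p`-part conjugate to `y` -/
theorem bl_V (hab : IsMulCommutative P)
    (hCN : (Subgroup.centralizer ((P : Subgroup G) : Set G)).relIndex
      (Subgroup.normalizer ((P : Subgroup G) : Set G)) = 3)
    (hfrob : ∀ y : G, y ∈ (P : Subgroup G) → y ≠ 1 → Subgroup.centralizer ({y} : Set G) ⊓
      Subgroup.normalizer ((P : Subgroup G) : Set G) =
        Subgroup.centralizer ((P : Subgroup G) : Set G))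
    (t : G) (ht : orderOf t = 2) (y : G) (hyP : y ∈ (P : Subgroup G)) (hy1 : y ≠ 1)
    (hA : ∀ u u' : G, u ∈ (P : Subgroup G) → u' ∈ (P : Subgroup G) → IsConj t u → IsConj t u' →
      y ≠ u * u') :
    ∀ g u z : G, IsConj (g * t * g⁻¹ * t) u⁻¹ → Cfsg.IsPPart p u z → ¬ IsConj y z := by
  have hp : p.Prime := Fact.out
  have hab' := bl_comm P hab
  intro g u z hconj hpp hyz
  have ht2 : t * t = 1 := by
    rw [← sq, ← ht, pow_orderOf_eq_one]
  obtain ⟨c, hc⟩ := isConj_iff.mp hconj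
  obtain ⟨e, he⟩ := isConj_iff.mp hyz
  obtain ⟨v, hzv, hcomm, hk, hreg⟩ := hpp
  -- the conjugated configuration
  obtain ⟨t₂, ht₂⟩ : ∃ t₂ : G, t₂ = (e⁻¹ * c) * t * (e⁻¹ * c)⁻¹ := ⟨_, rfl⟩
  obtain ⟨s₂, hs₂⟩ : ∃ s₂ : G, s₂ = (e⁻¹ * c * g) * t * (e⁻¹ * c * g)⁻¹ := ⟨_, rfl⟩
  obtain ⟨v₂, hv₂⟩ : ∃ v₂ : G, v₂ = e⁻¹ * v * e := ⟨_, rfl⟩
  have ht₂2 : t₂ * t₂ = 1 := by
    rw [ht₂]
    calc (e⁻¹ * c) * t * (e⁻¹ * c)⁻¹ * ((e⁻¹ * c) * t * (e⁻¹ * c)⁻¹)
        = (e⁻¹ * c) * (t * t) * (e⁻¹ * c)⁻¹ := by group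
      _ = 1 := by rw [ht2]; group
  have hs₂2 : s₂ * s₂ = 1 := by
    rw [hs₂]
    calc (e⁻¹ * c * g) * t * (e⁻¹ * c * g)⁻¹ * ((e⁻¹ * c * g) * t * (e⁻¹ * c * g)⁻¹)
        = (e⁻¹ * c * g) * (t * t) * (e⁻¹ * c * g)⁻¹ := by group
      _ = 1 := by rw [ht2]; group
  have ht₂inv : t₂⁻¹ = t₂ := inv_eq_of_mul_eq_one_left ht₂2
  have hs₂inv : s₂⁻¹ = s₂ := inv_eq_of_mul_eq_one_left hs₂2
  have hyz' : y = e⁻¹ * z * e := by
    rw [← he]
    group
  have hyv : y * v₂ = e⁻¹ * u * e := by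
    rw [hyz', hv₂, ← hzv]
    group
  have hu₂inv : (y * v₂)⁻¹ = s₂ * t₂ := by
    rw [hyv, hs₂, ht₂]
    have h1 : (e⁻¹ * u * e)⁻¹ = e⁻¹ * u⁻¹ * e := by group
    rw [h1, ← hc]
    group
  have hu₂ : t₂ * s₂ = y * v₂ := by
    have h1 : y * v₂ = (s₂ * t₂)⁻¹ := by rw [← hu₂inv, inv_inv]
    rw [h1, mul_inv_rev, ht₂inv, hs₂inv]
  have hcommy : Commute y v₂ := by
    rw [hyz', hv₂]
    show e⁻¹ * z * e * (e⁻¹ * v * e) = e⁻¹ * v * e * (e⁻¹ * z * e)
    calc e⁻¹ * z * e * (e⁻¹ * v * e) = e⁻¹ * (z * v) * e := by group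
      _ = e⁻¹ * (v * z) * e := by rw [hcomm.eq]
      _ = e⁻¹ * v * e * (e⁻¹ * z * e) := by group
  have hreg₂ : ¬ p ∣ orderOf v₂ := by
    have h1 : orderOf v₂ = orderOf v := by
      rw [hv₂]
      have := MulEquiv.orderOf_eq (MulAut.conj e⁻¹) v
      rwa [MulAut.conj_apply, inv_inv] at this
    rw [h1]
    exact hreg
  have hky := bl_orderOf p P y hyP
  have hpp₂ : Cfsg.IsPPart p (y * v₂) y := ⟨v₂, rfl, hcommy, hky, hreg₂⟩
  obtain ⟨cz, hcz, -⟩ := isPPart_zpow_eq hp hpp₂ hpp₂ 1 (by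
    intro h
    exact hp.one_lt.ne' (Nat.dvd_one.mp h))
  rw [pow_one] at hcz
  have hinv_y : t₂ * y * t₂⁻¹ = y⁻¹ := by
    have h1 : t₂ * (y * v₂) * t₂⁻¹ = (y * v₂)⁻¹ := by
      rw [hu₂inv, ← hu₂, ht₂inv]
      calc t₂ * (t₂ * s₂) * t₂ = (t₂ * t₂) * s₂ * t₂ := by group
        _ = s₂ * t₂ := by rw [ht₂2, one_mul]
    rw [← hcz, ← conj_zpow, h1, inv_zpow]
  by_cases hyy : y⁻¹ = y
  · -- `y` is an involution, `p = 2`
    have hyo : orderOf y = 2 := by
      rw [orderOf_eq_prime_iff]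
      refine ⟨?_, hy1⟩
      rw [sq]
      nth_rewrite 1 [← hyy]
      exact inv_mul_cancel y
    obtain ⟨k, hk'⟩ := hky
    have hp2 : p = 2 := by
      rw [hyo] at hk'
      have hk0 : k ≠ 0 := by
        rintro rfl
        simp at hk'
      have h1 : p ∣ 2 := by
        rw [hk']
        exact dvd_pow_self p hk0
      exact (Nat.prime_dvd_prime_iff_eq hp Nat.prime_two).mp h1
    have hle := bl_le_centralizer p P hab' y hyP
    have hNC := (hfrob y hyP hy1).le
    have hyH : y ∈ Subgroup.centralizer ({y} : Set G) := hle hyP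
    have ht₂H : t₂ ∈ Subgroup.centralizer ({y} : Set G) := by
      rw [Subgroup.mem_centralizer_iff]
      intro h hh
      rw [Set.mem_singleton_iff] at hh
      rw [hh]
      rw [hyy] at hinv_y
      calc y * t₂ = (t₂ * y * t₂⁻¹) * t₂ := by rw [hinv_y]
        _ = t₂ * y := by group
    have hv₂H : v₂ ∈ Subgroup.centralizer ({y} : Set G) := by
      rw [Subgroup.mem_centralizer_iff]
      intro h hh
      rw [Set.mem_singleton_iff] at hh
      rw [hh]
      exact hcommy.eq
    have hs₂H : s₂ ∈ Subgroup.centralizer ({y} : Set G) := by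
      have h1 : s₂ = t₂ * (y * v₂) := by
        rw [← hu₂, ← mul_assoc, ht₂2, one_mul]
      rw [h1]
      exact Subgroup.mul_mem _ ht₂H (Subgroup.mul_mem _ hyH hv₂H)
    have hP'coe : ((P.subtype hle : Sylow p (Subgroup.centralizer ({y} : Set G))) :
        Subgroup (Subgroup.centralizer ({y} : Set G))) =
        (P : Subgroup G).subgroupOf (Subgroup.centralizer ({y} : Set G)) :=
      Sylow.coe_subtype _ _
    have hsyl : ∀ x : G, x ∈ Subgroup.centralizer ({y} : Set G) → x * x = 1 →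
        ∃ h : G, h ∈ Subgroup.centralizer ({y} : Set G) ∧ h * x * h⁻¹ ∈ (P : Subgroup G) := by
      intro x hx hx2
      have hpg : IsPGroup p (Subgroup.zpowers (⟨x, hx⟩ : Subgroup.centralizer ({y} : Set G))) := by
        rw [hp2]
        intro w
        refine ⟨1, ?_⟩
        obtain ⟨w, hw⟩ := w
        obtain ⟨j, rfl⟩ := Subgroup.mem_zpowers_iff.mp hw
        apply Subtype.ext
        have hX2 : (⟨x, hx⟩ : Subgroup.centralizer ({y} : Set G)) ^ (2 : ℤ) = 1 := by
          apply Subtype.ext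
          show x ^ (2 : ℤ) = 1
          rw [zpow_ofNat, sq]
          exact hx2
        show ((⟨x, hx⟩ : Subgroup.centralizer ({y} : Set G)) ^ j) ^ (2 ^ 1) = 1
        rw [pow_one, ← zpow_natCast, ← zpow_mul, mul_comm, zpow_mul]
        push_cast
        rw [hX2, one_zpow]
      obtain ⟨h, hh⟩ := Cfsg.Agent.Lib.Helper3.exists_conj_le_sylow (P.subtype hle) _ hpg
      have h1 := hh ⟨x, hx⟩ (Subgroup.mem_zpowers _)
      rw [hP'coe, Subgroup.mem_subgroupOf] at h1
      exact ⟨h, h.2, h1⟩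
    obtain ⟨h, hh, hu⟩ := hsyl t₂ ht₂H ht₂2
    obtain ⟨h', hh', hu'⟩ := hsyl s₂ hs₂H hs₂2
    have hprod := bl_transfer_prod P _ hle hNC t₂ s₂ h h' y v₂ ht₂H hs₂H hh hh' hu hu' hyP hv₂H
      hreg₂ hu₂
    refine hA _ _ hu hu' ?_ ?_ hprod
    · rw [ht₂]
      exact isConj_iff.mpr ⟨h * (e⁻¹ * c), by group⟩
    · rw [hs₂]
      exact isConj_iff.mpr ⟨h' * (e⁻¹ * c * g), by group⟩
  · -- `y ≠ y⁻¹`: fusion
    have hconj' : IsConj ((⟨y, hyP⟩ : (P : Subgroup G)) : G)
        (((⟨y, hyP⟩ : (P : Subgroup G))⁻¹ : (P : Subgroup G)) : G) :=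
      isConj_iff.mpr ⟨t₂, hinv_y⟩
    obtain ⟨n, hn⟩ := bl_fusion P hab _ _ hconj'
    have hn2 : blCj (P : Subgroup G) (n * n) ⟨y, hyP⟩ = ⟨y, hyP⟩ := by
      rw [blCj_mul, hn, map_inv, hn, inv_inv]
    have hmem2 := (bl_stabP (P : Subgroup G) hfrob ⟨y, hyP⟩ hy1 (n * n)).mp hn2
    haveI := bl_cent_normal (P : Subgroup G)
    have hmem3 := Subgroup.pow_index_mem ((Subgroup.centralizer ((P : Subgroup G) : Set G)).subgroupOf
      (Subgroup.normalizer ((P : Subgroup G) : Set G))) n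
    have hidx : ((Subgroup.centralizer ((P : Subgroup G) : Set G)).subgroupOf
      (Subgroup.normalizer ((P : Subgroup G) : Set G))).index = 3 := hCN
    rw [hidx] at hmem3
    have hmem1 : n ∈ (Subgroup.centralizer ((P : Subgroup G) : Set G)).subgroupOf
        (Subgroup.normalizer ((P : Subgroup G) : Set G)) := by
      have h1 : n = n ^ 3 * (n * n)⁻¹ := by group
      rw [h1]
      exact Subgroup.mul_mem _ hmem3 (Subgroup.inv_mem _ hmem2)
    have h2 := (bl_stabP (P : Subgroup G) hfrob ⟨y, hyP⟩ hy1 n).mpr hmem1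
    rw [hn] at h2
    exact hyy (congrArg Subtype.val h2)

/-- a nonidentity element of `P` which is not a product of two conjugates of `t` in `P` -/
theorem bl_exists_y (hab : IsMulCommutative P)
    (hCN : (Subgroup.centralizer ((P : Subgroup G) : Set G)).relIndex
      (Subgroup.normalizer ((P : Subgroup G) : Set G)) = 3)
    (hm2 : 3 + 1 < Nat.card (P : Subgroup G))
    (hfrob : ∀ y : G, y ∈ (P : Subgroup G) → y ≠ 1 → Subgroup.centralizer ({y} : Set G) ⊓
      Subgroup.normalizer ((P : Subgroup G) : Set G) =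
        Subgroup.centralizer ((P : Subgroup G) : Set G))
    (t : G) (ht : orderOf t = 2) :
    ∃ y : G, y ∈ (P : Subgroup G) ∧ y ≠ 1 ∧
      ∀ u u' : G, u ∈ (P : Subgroup G) → u' ∈ (P : Subgroup G) → IsConj t u → IsConj t u' →
        y ≠ u * u' := by
  classical
  have hp : p.Prime := Fact.out
  haveI : Fintype (P : Subgroup G) := Fintype.ofFinite _
  haveI : Fintype (Subgroup.normalizer ((P : Subgroup G) : Set G)) := Fintype.ofFinite _
  have hord : ∀ u : G, IsConj t u → orderOf u = 2 := by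
    intro u hu
    obtain ⟨c, hc⟩ := isConj_iff.mp hu
    rw [← hc, ← ht]
    have := MulEquiv.orderOf_eq (MulAut.conj c) t
    rwa [MulAut.conj_apply] at this
  by_cases hp2 : p = 2
  · -- counting
    obtain ⟨A, hA⟩ : ∃ A : Finset (P : Subgroup G),
        A = Finset.univ.filter (fun u : (P : Subgroup G) => IsConj t (u : G)) := ⟨_, rfl⟩
    have hA3 : A.card ≤ 3 := by
      rcases A.eq_empty_or_nonempty with h | ⟨u₀, hu₀⟩
      · rw [h]
        simp
      · have hu₀c : IsConj t (u₀ : G) := by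
          rw [hA, Finset.mem_filter] at hu₀
          exact hu₀.2
        have hu₀1 : (u₀ : G) ≠ 1 := by
          intro h
          have h2 := hord _ hu₀c
          rw [h, orderOf_one] at h2
          omega
        have hsub : A ⊆ Finset.univ.filter (fun u' : (P : Subgroup G) =>
            ∃ n : Subgroup.normalizer ((P : Subgroup G) : Set G),
              blCj (P : Subgroup G) n u₀ = u') := by
          intro u hu
          rw [hA, Finset.mem_filter] at hu
          rw [Finset.mem_filter]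
          exact ⟨Finset.mem_univ _, bl_fusion P hab u₀ u (hu₀c.symm.trans hu.2)⟩
        have horb := bl_card_orbit (fun n w => blCj (P : Subgroup G) n w)
          (blCj_one (P : Subgroup G)) (blCj_mul (P : Subgroup G)) u₀ _
          (bl_stabP (P : Subgroup G) hfrob u₀ hu₀1)
        have hidx := Subgroup.index_mul_card
          ((Subgroup.centralizer ((P : Subgroup G) : Set G)).subgroupOf
            (Subgroup.normalizer ((P : Subgroup G) : Set G)))
        have hidx3 : ((Subgroup.centralizer ((P : Subgroup G) : Set G)).subgroupOf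
            (Subgroup.normalizer ((P : Subgroup G) : Set G))).index = 3 := hCN
        rw [hidx3, Nat.card_eq_fintype_card
          (α := Subgroup.normalizer ((P : Subgroup G) : Set G)), ← horb] at hidx
        have h3 := Nat.eq_of_mul_eq_mul_right Nat.card_pos hidx
        exact (Finset.card_le_card hsub).trans (le_of_eq h3.symm)
    obtain ⟨B, hB⟩ : ∃ B : Finset (P : Subgroup G),
        B = (A ×ˢ A).image (fun x => x.1 * x.2) ∪ {1} := ⟨_, rfl⟩
    have hB10 : B.card ≤ 10 := by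
      rw [hB]
      refine (Finset.card_union_le _ _).trans ?_
      have h1 : ((A ×ˢ A).image (fun x => x.1 * x.2)).card ≤ 9 := by
        refine Finset.card_image_le.trans ?_
        rw [Finset.card_product]
        nlinarith
      simp only [Finset.card_singleton]
      omega
    have hP16 : 16 ≤ Fintype.card (P : Subgroup G) := by
      rw [← Nat.card_eq_fintype_card]
      have h1 : Nat.card (P : Subgroup G) = 2 ^ (Nat.card G).factorization p := by
        rw [Sylow.card_eq_multiplicity P]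
        congr 1
      have h2 := bl_card_orb P hab 3 hCN hfrob
      obtain ⟨k, hk⟩ : ∃ k : ℕ, k = (Nat.card G).factorization p := ⟨_, rfl⟩
      rw [← hk] at h1
      rw [h1] at h2 hm2 ⊢
      have hk4 : 4 ≤ k := by
        by_contra hlt
        push Not at hlt
        interval_cases k <;> omega
      calc 16 = 2 ^ 4 := by norm_num
        _ ≤ 2 ^ k := Nat.pow_le_pow_right (by norm_num) hk4
    obtain ⟨y, -, hy⟩ := Finset.exists_mem_notMem_of_card_lt_card
      (s := B) (t := (Finset.univ : Finset (P : Subgroup G))) (by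
        rw [Finset.card_univ]
        omega)
    refine ⟨y, y.2, ?_, ?_⟩
    · intro h
      apply hy
      rw [hB]
      have h1 : y = 1 := Subtype.ext h
      rw [h1]
      simp
    · intro u u' hu hu' hc hc' h
      apply hy
      rw [hB, Finset.mem_union]
      left
      rw [Finset.mem_image]
      refine ⟨(⟨u, hu⟩, ⟨u', hu'⟩), ?_, ?_⟩
      · rw [Finset.mem_product, hA, Finset.mem_filter, Finset.mem_filter]
        exact ⟨⟨Finset.mem_univ _, hc⟩, ⟨Finset.mem_univ _, hc'⟩⟩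
      · apply Subtype.ext
        exact h.symm
  · -- `p` odd
    obtain ⟨y₀, hy₀⟩ : ∃ y₀ : (P : Subgroup G), y₀ ≠ 1 := by
      by_contra h
      push Not at h
      have h1 : Nat.card (P : Subgroup G) = 1 :=
        Nat.card_eq_one_iff_unique.mpr ⟨⟨fun a b => (h a).trans (h b).symm⟩, ⟨1⟩⟩
      omega
    refine ⟨y₀, y₀.2, fun h => hy₀ (Subtype.ext h), ?_⟩
    intro u u' hu hu' hc hc' _
    obtain ⟨k, hk⟩ := bl_orderOf p P u hu
    rw [hord u hc] at hk
    have hk0 : k ≠ 0 := by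
      rintro rfl
      simp at hk
    have h1 : p ∣ 2 := by
      rw [hk]
      exact dvd_pow_self p hk0
    exact hp2 ((Nat.prime_dvd_prime_iff_eq hp Nat.prime_two).mp h1)

end inv

end Cfsg.Agent.Lib.Helper78
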