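import Mathlib
import Cfsg.Prelude.Def_Blocks
import Cfsg.Agent.Lib.Helper78.BLData
import Cfsg.Agent.Lib.Helper78.BLInv

/-!
The case `|N_G(P) : C_G(P)| = 3`: the Brauer--Leonard data can be chosen with `d = 0`.
-/

set_option autoImplicit false

namespace Cfsg.Agent.Lib.Helper78

open Cfsg

theorem bl_three_arith (d δ R S : ℤ) (hδ : δ = 1 ∨ δ = -1) (hR : 2 ≤ R) (hS : 1 ≤ S)
    (h : (d - δ) ^ 2 + (R - 1) * d ^ 2 + S = 3 + 1) : d = 0 ∨ (d = δ ∧ (R - 1) + S = 4) := by
  have h0 : 0 ≤ (R - 1) * d ^ 2 := mul_nonneg (by linarith) (sq_nonneg d)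
  have h1 : (d - δ) ^ 2 ≤ 3 := by linarith
  have h2 : d - δ ≤ 1 := by nlinarith
  have h3 : -1 ≤ d - δ := by nlinarith
  rcases hδ with rfl | rfl
  · have h4 : d = 0 ∨ d = 1 ∨ d = 2 := by omega
    rcases h4 with rfl | rfl | rfl
    · left; rfl
    · right
      refine ⟨rfl, ?_⟩
      linarith
    · exfalso
      nlinarith
  · have h4 : d = 0 ∨ d = -1 ∨ d = -2 := by omega
    rcases h4 with rfl | rfl | rfl
    · left; rfl
    · right
      refine ⟨rfl, ?_⟩
      linarith
    · exfalso
      nlinarith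

section three

variable {G : Type*} [Group G] [Finite G] {p : ℕ} [Fact p.Prime] (M : Ideal Cfsg.AlgInt)
  (P : Sylow p G)

set_option maxHeartbeats 1000000 in
theorem bl_three_data (hM : Cfsg.IsPModular p M) (hab : IsMulCommutative P)
    (hP1 : Nat.card (P : Subgroup G) ≠ 1)
    (hCN : (Subgroup.centralizer ((P : Subgroup G) : Set G)).relIndex
      (Subgroup.normalizer ((P : Subgroup G) : Set G)) = 3)
    (hm2 : 3 + 1 < Nat.card (P : Subgroup G))
    (hfrob : ∀ y : G, y ∈ (P : Subgroup G) → y ≠ 1 → Subgroup.centralizer ({y} : Set G) ⊓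
      Subgroup.normalizer ((P : Subgroup G) : Set G) =
        Subgroup.centralizer ((P : Subgroup G) : Set G)) :
    ∃ (δ : ℤ) (η : blOrb (P : Subgroup G) → IrrCharacter G), BLData M P 0 δ η := by
  classical
  have hp : p.Prime := hM.1
  obtain ⟨d, δ, η, hD⟩ := bl_exists M P hM hab 3 hm2 hCN hfrob
  obtain ⟨X, Y, a, ζ, h1, h2, h3, h4, h5, h6, h7, h8, h9, h10, h11, h12, h13, hYr, hXr, hζ, htriv⟩ :=
    bl_package M P hM hab hP1 3 hm2 hCN hfrob d δ η hD
  have hD' := hD
  obtain ⟨hδ, hinj, hmem, hval, hoth⟩ := hD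
  haveI : Finite ((P : Subgroup G) →* ℂˣ) := Cfsg.Agent.Lib.Helper79.finite_monoidHom_units
  haveI : Fintype (blOrb (P : Subgroup G)) := Fintype.ofFinite _
  have hcard := bl_card_orb P hab 3 hCN hfrob
  have hr : (Nat.card (P : Subgroup G) - 1) / 3 = Nat.card (blOrb (P : Subgroup G)) := by
    rw [← hcard]
    exact Nat.mul_div_cancel _ (by norm_num)
  have hκ2 : 2 ≤ Nat.card (blOrb (P : Subgroup G)) := by omega
  have hrZ : ((Nat.card (P : Subgroup G) : ℤ) - 1) / ((3 : ℕ) : ℤ) =
      (Nat.card (blOrb (P : Subgroup G)) : ℤ) := by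
    have h1' : ((Nat.card (P : Subgroup G) : ℤ) - 1) =
        (Nat.card (blOrb (P : Subgroup G)) : ℤ) * 3 := by
      have h2' : 1 ≤ Nat.card (P : Subgroup G) := Nat.card_pos
      zify [h2'] at hcard
      linarith
    rw [h1']
    exact Int.mul_ediv_cancel _ (by norm_num)
  rw [hrZ] at h11
  -- a nonidentity element of `P`
  obtain ⟨y₀, hy₀⟩ : ∃ y₀ : (P : Subgroup G), y₀ ≠ 1 := by
    by_contra h
    push Not at h
    exact hP1 (Nat.card_eq_one_iff_unique.mpr ⟨⟨fun a b => (h a).trans (h b).symm⟩, ⟨1⟩⟩)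
  have hy₀G : (y₀ : G) ≠ 1 := fun h => hy₀ (Subtype.ext h)
  have hatriv : a (Cfsg.Agent.Lib.Helper77.trivIrr G) = 1 := by
    have h := (h6 _ htriv).2 (y₀ : G) (y₀ : G) (bl_isPPart_self P _ y₀.2) y₀.2 hy₀G
    rw [Cfsg.Agent.Lib.Helper77.trivIrr_apply] at h
    exact_mod_cast h.symm
  haveI : Fintype X := Fintype.ofFinite X
  have hsumF : ∑ᶠ χ ∈ X, a χ ^ 2 = ∑ χ ∈ X.toFinset, a χ ^ 2 := finsum_mem_eq_toFinset_sum _ X
  have hSX1 : 1 ≤ ∑ᶠ χ ∈ X, a χ ^ 2 := by
    rw [hsumF]
    have h := Finset.single_le_sum (f := fun χ => a χ ^ 2) (fun χ _ => sq_nonneg (a χ))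
      (Set.mem_toFinset.mpr htriv)
    rw [hatriv] at h
    simpa using h
  have hδ2 : δ ^ 2 = 1 := by
    rcases hδ with h | h <;> rw [h] <;> norm_num
  have hcase : d = 0 ∨ (d = δ ∧ Nat.card (blOrb (P : Subgroup G)) = 2) := by
    have hR2 : (2 : ℤ) ≤ (Nat.card (blOrb (P : Subgroup G)) : ℤ) := by exact_mod_cast hκ2
    have h11' : (d - δ) ^ 2 + ((Nat.card (blOrb (P : Subgroup G)) : ℤ) - 1) * d ^ 2 +
        ∑ᶠ χ ∈ X, a χ ^ 2 = 3 + 1 := by
      rw [h11]
      norm_num
    rcases bl_three_arith d δ _ _ hδ hR2 hSX1 h11' with hd0 | ⟨hdδ, hRS⟩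
    · exact Or.inl hd0
    right
    refine ⟨hdδ, ?_⟩
    have hr4 : (Nat.card (blOrb (P : Subgroup G)) : ℤ) ≤ 4 := by linarith
    have hr4' : Nat.card (blOrb (P : Subgroup G)) ≤ 4 := by exact_mod_cast hr4
    by_contra hr2
    have hr34 : Nat.card (blOrb (P : Subgroup G)) = 3 ∨ Nat.card (blOrb (P : Subgroup G)) = 4 := by
      omega
    rcases hr34 with hr3 | hr4e
    · -- `|P| = 10`
      have hP10 : Nat.card (P : Subgroup G) = 10 := by omega
      have hpow := Sylow.card_eq_multiplicity P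
      rw [hP10] at hpow
      have e2 : p = 2 := by
        have : 2 ∣ p ^ (Nat.card G).factorization p := by rw [← hpow]; norm_num
        exact ((Nat.prime_dvd_prime_iff_eq Nat.prime_two hp).mp
          (Nat.Prime.dvd_of_dvd_pow Nat.prime_two this)).symm
      have e5 : p = 5 := by
        have : 5 ∣ p ^ (Nat.card G).factorization p := by rw [← hpow]; norm_num
        exact ((Nat.prime_dvd_prime_iff_eq (by norm_num) hp).mp
          (Nat.Prime.dvd_of_dvd_pow (by norm_num) this)).symm
      omega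
    · -- `X = {1}` and the degree equation
      rw [hr4e] at hRS
      have hSX : ∑ᶠ χ ∈ X, a χ ^ 2 = 1 := by
        push_cast at hRS
        linarith
      have hXsing : ∀ χ ∈ X, χ = Cfsg.Agent.Lib.Helper77.trivIrr G := by
        intro χ hχ
        by_contra hne
        have hsub : ({Cfsg.Agent.Lib.Helper77.trivIrr G, χ} : Finset (IrrCharacter G)) ⊆
            X.toFinset := by
          intro x hx
          rw [Finset.mem_insert, Finset.mem_singleton] at hx
          rcases hx with rfl | rfl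
          · exact Set.mem_toFinset.mpr htriv
          · exact Set.mem_toFinset.mpr hχ
        have hle := Finset.sum_le_sum_of_subset_of_nonneg hsub
          (f := fun χ => a χ ^ 2) (fun χ _ _ => sq_nonneg (a χ))
        rw [Finset.sum_pair (fun h => hne h.symm), hatriv, ← hsumF, hSX] at hle
        have h0 := (h6 χ hχ).1
        have : 0 < a χ ^ 2 := by positivity
        linarith
      have hXeq : X = {Cfsg.Agent.Lib.Helper77.trivIrr G} :=
        Set.eq_singleton_iff_unique_mem.mpr ⟨htriv, hXsing⟩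
      obtain ⟨q0⟩ : Nonempty (blOrb (P : Subgroup G)) := by
        have : 0 < Nat.card (blOrb (P : Subgroup G)) := by omega
        exact (Nat.card_pos_iff.mp this).1
      have hη0 : η q0 ∈ Y := by
        rw [hYr]
        exact ⟨q0, rfl⟩
      have hdeg := h13 (η q0) hη0 1 (by
        rw [orderOf_one]
        exact hp.one_lt.ne' ∘ Nat.dvd_one.mp)
      rw [hr, hr4e, hXeq, finsum_mem_singleton, hatriv, hdδ,
        Cfsg.Agent.Lib.Helper77.trivIrr_apply,
        Cfsg.Agent.Lib.Helper80.char_one_eq_charDegree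
          (Cfsg.Agent.Lib.Helper80.isCharacter_of_isIrrCharacter (η q0).2)] at hdeg
      have hdegZ : ((4 : ℤ) * δ - δ) * (charDegree (η q0 : G → ℂ) : ℤ) + 1 = 0 := by
        have : ((((4 : ℤ) * δ - δ) * (charDegree (η q0 : G → ℂ) : ℤ) + 1 : ℤ) : ℂ) = 0 := by
          push_cast
          linear_combination hdeg
        exact_mod_cast this
      rcases hδ with h | h <;> rw [h] at hdegZ <;> omega
  rcases hcase with hd0 | ⟨hdδ, hr2⟩
  · rw [hd0] at hD'
    exact ⟨δ, η, hD'⟩
  · -- swap the two orbits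
    obtain ⟨x, y, hxy, huniv⟩ := Nat.card_eq_two_iff.mp hr2
    have hall : ∀ q : blOrb (P : Subgroup G), q = x ∨ q = y := by
      intro q
      have : q ∈ ({x, y} : Set (blOrb (P : Subgroup G))) := by
        rw [huniv]
        exact Set.mem_univ q
      exact this
    have hσ1 : ∀ q q' : blOrb (P : Subgroup G), q ≠ q' → Equiv.swap x y q = q' := by
      intro q q' hne
      rcases hall q with rfl | rfl <;> rcases hall q' with rfl | rfl
      · exact absurd rfl hne
      · exact Equiv.swap_apply_left _ _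
      · exact Equiv.swap_apply_right _ _
      · exact absurd rfl hne
    have hσ2 : ∀ q : blOrb (P : Subgroup G), Equiv.swap x y q ≠ q := by
      intro q
      rcases hall q with rfl | rfl
      · rw [Equiv.swap_apply_left]
        exact hxy.symm
      · rw [Equiv.swap_apply_right]
        exact hxy
    refine ⟨-δ, fun q => η (Equiv.swap x y q), ?_, ?_, ?_, ?_, ?_⟩
    · rcases hδ with h | h <;> rw [h] <;> norm_num
    · exact hinj.comp (Equiv.swap x y).injective
    · intro q
      exact hmem _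
    · intro q ψ
      rw [hval (Equiv.swap x y q) ψ, hdδ]
      by_cases hq : q = Quotient.mk (blSetoid (P : Subgroup G)) ψ
      · rw [if_pos hq, if_neg (by rw [← hq]; exact hσ2 q)]
        push_cast
        ring
      · rw [if_neg hq, if_pos (hσ1 q _ hq)]
        push_cast
        ring
    · intro χ hχ hne ψ ψ'
      refine hoth χ hχ (fun q h => hne (Equiv.swap x y q) ?_) ψ ψ'
      show η (Equiv.swap x y (Equiv.swap x y q)) = χ
      rw [Equiv.swap_apply_self]
      exact h

end three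

end Cfsg.Agent.Lib.Helper78
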