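import Mathlib
import Cfsg.Prelude.Def_Blocks
import Cfsg.Agent.Lib.Helper78.BLThree
import Cfsg.Agent.Lib.Helper78.BLArith

/-!
The structure of the principal block in the index three case.
-/

set_option autoImplicit false

namespace Cfsg.Agent.Lib.Helper78

open Cfsg

section struct

variable {G : Type*} [Group G] [Finite G] {p : ℕ} [Fact p.Prime] (M : Ideal Cfsg.AlgInt)
  (P : Sylow p G)

set_option maxHeartbeats 1000000 in
theorem bl_three_struct (hM : Cfsg.IsPModular p M) (hab : IsMulCommutative P)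
    (hP1 : Nat.card (P : Subgroup G) ≠ 1)
    (hCN : (Subgroup.centralizer ((P : Subgroup G) : Set G)).relIndex
      (Subgroup.normalizer ((P : Subgroup G) : Set G)) = 3)
    (hm2 : 3 + 1 < Nat.card (P : Subgroup G))
    (hfrob : ∀ y : G, y ∈ (P : Subgroup G) → y ≠ 1 → Subgroup.centralizer ({y} : Set G) ⊓
      Subgroup.normalizer ((P : Subgroup G) : Set G) =
        Subgroup.centralizer ((P : Subgroup G) : Set G)) :
    ∃ (δ : ℤ) (η : blOrb (P : Subgroup G) → IrrCharacter G) (X Y : Set (IrrCharacter G))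
      (a : IrrCharacter G → ℤ) (ζ : (↥(P : Subgroup G) →* ℂˣ) → IrrCharacter G)
      (χ₂ χ₃ : IrrCharacter G),
      BLData M P 0 δ η ∧
      Cfsg.principalBlock M G = X ∪ Y ∧ Disjoint X Y ∧
      Nat.card Y = (Nat.card (P : Subgroup G) - 1) / 3 ∧
      (∀ χ ∈ X, (a χ = 1 ∨ a χ = -1) ∧ ∀ z y : G, Cfsg.IsPPart p z y → y ∈ (P : Subgroup G) →
        y ≠ 1 → (χ : G → ℂ) z = (a χ : ℂ)) ∧
      (∀ ψ : ↥(P : Subgroup G) →* ℂˣ, ψ ≠ 1 → ζ ψ ∈ Y) ∧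
      (∀ η ∈ Y, ∃ ψ : ↥(P : Subgroup G) →* ℂˣ, ψ ≠ 1 ∧ ζ ψ = η) ∧
      (∀ ψ ψ' : ↥(P : Subgroup G) →* ℂˣ, ψ ≠ 1 →
        (∃ n : G, n ∈ Subgroup.normalizer ((P : Subgroup G) : Set G) ∧
          ∀ w w' : ↥(P : Subgroup G), (w' : G) = n * w * n⁻¹ → ψ' w' = ψ w) → ζ ψ' = ζ ψ) ∧
      (∀ ψ : ↥(P : Subgroup G) →* ℂˣ, ψ ≠ 1 → ∀ (z : G) (y : ↥(P : Subgroup G)),
        Cfsg.IsPPart p z (y : G) → (y : G) ≠ 1 →
        (ζ ψ : G → ℂ) z = (δ : ℂ) *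
          ∑ᶠ ψ' ∈ {ψ' : ↥(P : Subgroup G) →* ℂˣ |
            ∃ n : G, n ∈ Subgroup.normalizer ((P : Subgroup G) : Set G) ∧
              ∀ w w' : ↥(P : Subgroup G), (w' : G) = n * w * n⁻¹ → ψ' w' = ψ w},
            ((ψ' y : ℂˣ) : ℂ)) ∧
      (∀ (q q' : blOrb (P : Subgroup G)) (g : G), ¬ p ∣ orderOf g →
        (η q : G → ℂ) g = (η q' : G → ℂ) g) ∧
      (∀ (q : blOrb (P : Subgroup G)) (g : G), ¬ p ∣ orderOf g →
        -(δ : ℂ) * (η q : G → ℂ) g +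
          (1 + (a χ₂ : ℂ) * (χ₂ : G → ℂ) g + (a χ₃ : ℂ) * (χ₃ : G → ℂ) g) = 0) ∧
      Y = Set.range η ∧ X = {Cfsg.Agent.Lib.Helper77.trivIrr G, χ₂, χ₃} ∧
      χ₂ ≠ Cfsg.Agent.Lib.Helper77.trivIrr G ∧ χ₃ ≠ Cfsg.Agent.Lib.Helper77.trivIrr G ∧
      χ₂ ≠ χ₃ ∧ a (Cfsg.Agent.Lib.Helper77.trivIrr G) = 1 := by
  classical
  have hp : p.Prime := hM.1
  obtain ⟨δ, η, hD⟩ := bl_three_data M P hM hab hP1 hCN hm2 hfrob
  obtain ⟨X, Y, a, ζ, h1, h2, h3, h4, h5, h6, h7, h8, h9, h10, h11, h12, h13, hYr, hXr, hζ, htriv⟩ :=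
    bl_package M P hM hab hP1 3 hm2 hCN hfrob 0 δ η hD
  have hD' := hD
  obtain ⟨hδ, hinj, hmem, hval, hoth⟩ := hD
  have hδ2 : δ ^ 2 = 1 := by
    rcases hδ with h | h <;> rw [h] <;> norm_num
  -- a nonidentity element of `P`
  obtain ⟨y₀, hy₀⟩ : ∃ y₀ : (P : Subgroup G), y₀ ≠ 1 := by
    by_contra h
    push Not at h
    exact hP1 (Nat.card_eq_one_iff_unique.mpr ⟨⟨fun a b => (h a).trans (h b).symm⟩, ⟨1⟩⟩)
  have hy₀G : (y₀ : G) ≠ 1 := fun h => hy₀ (Subtype.ext h)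
  have hatriv : a (Cfsg.Agent.Lib.Helper77.trivIrr G) = 1 := by
    have h := (h6 _ htriv).2 (y₀ : G) (y₀ : G) (bl_isPPart_self P _ y₀.2) y₀.2 hy₀G
    rw [Cfsg.Agent.Lib.Helper77.trivIrr_apply] at h
    exact_mod_cast h.symm
  have hsum : ∑ᶠ χ ∈ X, a χ ^ 2 = 3 := by
    push_cast at h11
    linear_combination h11 - hδ2
  haveI : Finite X := Set.toFinite X
  obtain ⟨χ₂, χ₃, hne2, hne3, h23, hX, ha2, ha3⟩ :=
    bl_X_three X a (Cfsg.Agent.Lib.Helper77.trivIrr G) htriv (fun χ hχ => (h6 χ hχ).1) hatriv hsum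
  have hm2X : χ₂ ∈ X := by rw [hX]; simp
  have hm3X : χ₃ ∈ X := by rw [hX]; simp
  refine ⟨δ, η, X, Y, a, ζ, χ₂, χ₃, hD', h2, h3, h4, ?_, h7, h8, h9, ?_, ?_, ?_, hYr, hX, hne2,
    hne3, h23, hatriv⟩
  · intro χ hχ
    refine ⟨?_, (h6 χ hχ).2⟩
    rw [hX] at hχ
    rcases hχ with rfl | rfl | rfl
    · exact Or.inl hatriv
    · exact ha2
    · exact ha3
  · intro ψ hψ z y hz hy
    have h := h10 ψ hψ z y hz hy
    rw [Int.cast_zero, zero_add] at h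
    exact h
  · intro q q' g hg
    exact h12 (η q) (by rw [hYr]; exact ⟨q, rfl⟩) (η q') (by rw [hYr]; exact ⟨q', rfl⟩) g hg
  · intro q g hg
    have h := h13 (η q) (by rw [hYr]; exact ⟨q, rfl⟩) g hg
    rw [Int.cast_zero, mul_zero, zero_sub] at h
    have hfs : ∑ᶠ χ ∈ X, (a χ : ℂ) * (χ : G → ℂ) g =
        1 + (a χ₂ : ℂ) * (χ₂ : G → ℂ) g + (a χ₃ : ℂ) * (χ₃ : G → ℂ) g := by
      rw [hX, finsum_mem_insert (fun χ : IrrCharacter G => (a χ : ℂ) * (χ : G → ℂ) g)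
        (by
          simp only [Set.mem_insert_iff, Set.mem_singleton_iff, not_or]
          exact ⟨fun h => hne2 h.symm, fun h => hne3 h.symm⟩)
        (Set.toFinite _),
        finsum_mem_pair h23, hatriv, Cfsg.Agent.Lib.Helper77.trivIrr_apply]
      push_cast
      ring
    rw [hfs] at h
    exact h

omit [Fact p.Prime] in
/-- splitting sums over the principal block -/
theorem bl_sum_B0 (η : blOrb (P : Subgroup G) → IrrCharacter G) (hinj : Function.Injective η)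
    [Fintype (blOrb (P : Subgroup G))] (X Y : Set (IrrCharacter G)) (χ₂ χ₃ : IrrCharacter G)
    (hB : Cfsg.principalBlock M G = X ∪ Y) (hdisj : Disjoint X Y) (hY : Y = Set.range η)
    (hX : X = {Cfsg.Agent.Lib.Helper77.trivIrr G, χ₂, χ₃})
    (h2 : χ₂ ≠ Cfsg.Agent.Lib.Helper77.trivIrr G) (h3 : χ₃ ≠ Cfsg.Agent.Lib.Helper77.trivIrr G)
    (h23 : χ₂ ≠ χ₃) (F : IrrCharacter G → ℂ) :
    ∑ᶠ χ ∈ Cfsg.principalBlock M G, F χ =
      F (Cfsg.Agent.Lib.Helper77.trivIrr G) + F χ₂ + F χ₃ + ∑ q, F (η q) := by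
  rw [hB, finsum_mem_union hdisj (Set.toFinite X) (Set.toFinite Y), hX, hY,
    finsum_mem_insert F
      (by
        simp only [Set.mem_insert_iff, Set.mem_singleton_iff, not_or]
        exact ⟨fun h => h2 h.symm, fun h => h3 h.symm⟩)
      (Set.toFinite _),
    finsum_mem_pair h23, finsum_mem_range hinj, finsum_eq_sum_of_fintype (fun q => F (η q))]
  ring

end struct

end Cfsg.Agent.Lib.Helper78
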