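import Mathlib
import Cfsg.Prelude.Def_Blocks
import Cfsg.Agent.Lib.Helper78.BLStruct

/-!
The involution analysis in the index three case of the Brauer--Leonard theory.
-/

set_option autoImplicit false

namespace Cfsg.Agent.Lib.Helper78

open Cfsg

section final

variable {G : Type*} [Group G] [Finite G] {p : ℕ} [Fact p.Prime] (M : Ideal Cfsg.AlgInt)
  (P : Sylow p G)

/-- the block orthogonality relation in split form -/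
theorem bl_star_split (hM : Cfsg.IsPModular p M) (hab : IsMulCommutative P)
    (hCN : (Subgroup.centralizer ((P : Subgroup G) : Set G)).relIndex
      (Subgroup.normalizer ((P : Subgroup G) : Set G)) = 3)
    (hfrob : ∀ y : G, y ∈ (P : Subgroup G) → y ≠ 1 → Subgroup.centralizer ({y} : Set G) ⊓
      Subgroup.normalizer ((P : Subgroup G) : Set G) =
        Subgroup.centralizer ((P : Subgroup G) : Set G))
    (η : blOrb (P : Subgroup G) → IrrCharacter G) [Fintype (blOrb (P : Subgroup G))]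
    (χ₂ χ₃ : IrrCharacter G)
    (hsplit : ∀ F : IrrCharacter G → ℂ, ∑ᶠ χ ∈ Cfsg.principalBlock M G, F χ =
      F (Cfsg.Agent.Lib.Helper77.trivIrr G) + F χ₂ + F χ₃ + ∑ q, F (η q))
    (t : G) (ht : orderOf t = 2) (y : G) (hyP : y ∈ (P : Subgroup G)) (hy1 : y ≠ 1)
    (hA : ∀ u u' : G, u ∈ (P : Subgroup G) → u' ∈ (P : Subgroup G) → IsConj t u → IsConj t u' →
      y ≠ u * u') :
    1 + (χ₂ : G → ℂ) t * (χ₂ : G → ℂ) t / (χ₂ : G → ℂ) 1 * (χ₂ : G → ℂ) y +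
      (χ₃ : G → ℂ) t * (χ₃ : G → ℂ) t / (χ₃ : G → ℂ) 1 * (χ₃ : G → ℂ) y +
      ∑ q, (η q : G → ℂ) t * (η q : G → ℂ) t / (η q : G → ℂ) 1 * (η q : G → ℂ) y = 0 := by
  have h := bl_star hM t y (bl_orderOf p P y hyP) (bl_V P hab hCN hfrob t ht y hyP hy1 hA)
  rw [hsplit (fun χ => (χ : G → ℂ) t * (χ : G → ℂ) t / (χ : G → ℂ) 1 * (χ : G → ℂ) y)] at h
  simp only [Cfsg.Agent.Lib.Helper77.trivIrr_apply] at h
  rw [← h]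
  ring

set_option maxHeartbeats 1000000 in
/-- the odd case -/
theorem bl_three_odd (hM : Cfsg.IsPModular p M) (hab : IsMulCommutative P)
    (hCN : (Subgroup.centralizer ((P : Subgroup G) : Set G)).relIndex
      (Subgroup.normalizer ((P : Subgroup G) : Set G)) = 3)
    (hm2 : 3 + 1 < Nat.card (P : Subgroup G))
    (hfrob : ∀ y : G, y ∈ (P : Subgroup G) → y ≠ 1 → Subgroup.centralizer ({y} : Set G) ⊓
      Subgroup.normalizer ((P : Subgroup G) : Set G) =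
        Subgroup.centralizer ((P : Subgroup G) : Set G))
    (δ : ℤ) (η : blOrb (P : Subgroup G) → IrrCharacter G) (hD : BLData M P 0 δ η)
    [Fintype (blOrb (P : Subgroup G))]
    (χ₂ χ₃ : IrrCharacter G) (a₂ a₃ : ℤ) (ha₂ : a₂ = 1 ∨ a₂ = -1) (ha₃ : a₃ = 1 ∨ a₃ = -1)
    (hne₂ : χ₂ ≠ Cfsg.Agent.Lib.Helper77.trivIrr G)
    (hne₃ : χ₃ ≠ Cfsg.Agent.Lib.Helper77.trivIrr G)
    (hηne : ∀ q, η q ≠ Cfsg.Agent.Lib.Helper77.trivIrr G)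
    (hsplit : ∀ F : IrrCharacter G → ℂ, ∑ᶠ χ ∈ Cfsg.principalBlock M G, F χ =
      F (Cfsg.Agent.Lib.Helper77.trivIrr G) + F χ₂ + F χ₃ + ∑ q, F (η q))
    (hv₂ : ∀ z y : G, Cfsg.IsPPart p z y → y ∈ (P : Subgroup G) → y ≠ 1 →
      (χ₂ : G → ℂ) z = (a₂ : ℂ))
    (hv₃ : ∀ z y : G, Cfsg.IsPPart p z y → y ∈ (P : Subgroup G) → y ≠ 1 →
      (χ₃ : G → ℂ) z = (a₃ : ℂ))
    (h12 : ∀ (q q' : blOrb (P : Subgroup G)) (g : G), ¬ p ∣ orderOf g →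
      (η q : G → ℂ) g = (η q' : G → ℂ) g)
    (h13 : ∀ (q : blOrb (P : Subgroup G)) (g : G), ¬ p ∣ orderOf g →
      -(δ : ℂ) * (η q : G → ℂ) g +
        (1 + (a₂ : ℂ) * (χ₂ : G → ℂ) g + (a₃ : ℂ) * (χ₃ : G → ℂ) g) = 0)
    (hp2 : p ≠ 2) (t : G) (ht : orderOf t = 2)
    (hK : ∀ K : Subgroup G, K.Normal → t ∈ K → K = ⊤) (q₀ : blOrb (P : Subgroup G)) :
    a₂ * a₃ * (-δ) = 1 ∧ ¬ (a₂ = 1 ∧ a₃ = 1 ∧ δ = -1) ∧
      IsSquare (Cfsg.charDegree (η q₀ : G → ℂ) *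
        (Cfsg.charDegree (χ₂ : G → ℂ) * Cfsg.charDegree (χ₃ : G → ℂ))) := by
  classical
  have hp : p.Prime := hM.1
  have hδ := hD.1
  obtain ⟨y, hyP, hy1, hA⟩ := bl_exists_y P hab hCN hm2 hfrob t ht
  have hstar := bl_star_split M P hM hab hCN hfrob η χ₂ χ₃ hsplit t ht y hyP hy1 hA
  have htreg : ¬ p ∣ orderOf t := by
    rw [ht]
    intro h
    exact hp2 ((Nat.prime_dvd_prime_iff_eq hp Nat.prime_two).mp h)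
  have h1reg : ¬ p ∣ orderOf (1 : G) := by
    rw [orderOf_one]
    exact fun h => hp.one_lt.ne' (Nat.dvd_one.mp h)
  have hchar : ∀ χ : IrrCharacter G, IsCharacter G (χ : G → ℂ) := fun χ =>
    Cfsg.Agent.Lib.Helper80.isCharacter_of_isIrrCharacter χ.2
  obtain ⟨k₂, hk₂⟩ := bl_char_invol_int (hchar χ₂) t ht
  obtain ⟨k₃, hk₃⟩ := bl_char_invol_int (hchar χ₃) t ht
  obtain ⟨k₄, hk₄⟩ := bl_char_invol_int (hchar (η q₀)) t ht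
  have hf₂ := Cfsg.Agent.Lib.Helper80.char_one_eq_charDegree (hchar χ₂)
  have hf₃ := Cfsg.Agent.Lib.Helper80.char_one_eq_charDegree (hchar χ₃)
  have hx := Cfsg.Agent.Lib.Helper80.char_one_eq_charDegree (hchar (η q₀))
  have hf₂pos := Cfsg.Agent.Lib.Helper80.charDegree_pos χ₂.2
  have hf₃pos := Cfsg.Agent.Lib.Helper80.charDegree_pos χ₃.2
  have hxpos := Cfsg.Agent.Lib.Helper80.charDegree_pos (η q₀).2
  have hu2' := bl_val_ne_deg χ₂ hne₂ t hK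
  have hu3' := bl_val_ne_deg χ₃ hne₃ t hK
  have hu4' := bl_val_ne_deg (η q₀) (hηne q₀) t hK
  obtain ⟨f₂, hf₂def⟩ : ∃ f₂ : ℕ, Cfsg.charDegree (χ₂ : G → ℂ) = f₂ := ⟨_, rfl⟩
  obtain ⟨f₃, hf₃def⟩ : ∃ f₃ : ℕ, Cfsg.charDegree (χ₃ : G → ℂ) = f₃ := ⟨_, rfl⟩
  obtain ⟨x, hxdef⟩ : ∃ x : ℕ, Cfsg.charDegree (η q₀ : G → ℂ) = x := ⟨_, rfl⟩
  rw [hf₂def] at hf₂ hf₂pos
  rw [hf₃def] at hf₃ hf₃pos
  rw [hxdef] at hx hxpos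
  rw [hf₂def, hf₃def, hxdef]
  rw [hk₂, hf₂] at hu2'
  rw [hk₃, hf₃] at hu3'
  rw [hk₄, hx] at hu4'
  have hy2 : (χ₂ : G → ℂ) y = (a₂ : ℂ) := hv₂ y y (bl_isPPart_self P y hyP) hyP hy1
  have hy3 : (χ₃ : G → ℂ) y = (a₃ : ℂ) := hv₃ y y (bl_isPPart_self P y hyP) hyP hy1
  have hsumY : ∑ q, (η q : G → ℂ) t * (η q : G → ℂ) t / (η q : G → ℂ) 1 * (η q : G → ℂ) y =
      (k₄ : ℂ) * (k₄ : ℂ) / (x : ℂ) * (-(δ : ℂ)) := by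
    rw [← bl_single M P hab δ η hD ⟨y, hyP⟩ (fun h => hy1 (congrArg Subtype.val h)),
      Finset.mul_sum]
    refine Finset.sum_congr rfl fun q _ => ?_
    rw [h12 q q₀ t htreg, h12 q q₀ 1 h1reg, hk₄, hx]
  rw [hsumY, hk₂, hk₃, hf₂, hf₃, hy2, hy3] at hstar
  have hE0 := h13 q₀ 1 h1reg
  have hE1 := h13 q₀ t htreg
  rw [hf₂, hf₃, hx] at hE0
  rw [hk₂, hk₃, hk₄] at hE1
  -- transfer to the rationals
  have hE0q : -(δ : ℚ) * (x : ℚ) + (1 + (a₂ : ℚ) * (f₂ : ℚ) + (a₃ : ℚ) * (f₃ : ℚ)) = 0 := by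
    have h : ((-(δ : ℚ) * (x : ℚ) + (1 + (a₂ : ℚ) * (f₂ : ℚ) + (a₃ : ℚ) * (f₃ : ℚ)) : ℚ) : ℂ) =
        ((0 : ℚ) : ℂ) := by
      push_cast
      exact hE0
    exact Rat.cast_injective h
  have hE1q : -(δ : ℚ) * (k₄ : ℚ) + (1 + (a₂ : ℚ) * (k₂ : ℚ) + (a₃ : ℚ) * (k₃ : ℚ)) = 0 := by
    have h : ((-(δ : ℚ) * (k₄ : ℚ) + (1 + (a₂ : ℚ) * (k₂ : ℚ) + (a₃ : ℚ) * (k₃ : ℚ)) : ℚ) : ℂ) =
        ((0 : ℚ) : ℂ) := by
      push_cast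
      exact hE1
    exact Rat.cast_injective h
  have hE2q : 1 + (k₂ : ℚ) * (k₂ : ℚ) / (f₂ : ℚ) * (a₂ : ℚ) +
      (k₃ : ℚ) * (k₃ : ℚ) / (f₃ : ℚ) * (a₃ : ℚ) +
      (k₄ : ℚ) * (k₄ : ℚ) / (x : ℚ) * (-(δ : ℚ)) = 0 := by
    have h : ((1 + (k₂ : ℚ) * (k₂ : ℚ) / (f₂ : ℚ) * (a₂ : ℚ) +
        (k₃ : ℚ) * (k₃ : ℚ) / (f₃ : ℚ) * (a₃ : ℚ) +
        (k₄ : ℚ) * (k₄ : ℚ) / (x : ℚ) * (-(δ : ℚ)) : ℚ) : ℂ) = ((0 : ℚ) : ℂ) := by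
      push_cast
      exact hstar
    exact Rat.cast_injective h
  have hf₂q : (0 : ℚ) < (f₂ : ℚ) := by exact_mod_cast hf₂pos
  have hf₃q : (0 : ℚ) < (f₃ : ℚ) := by exact_mod_cast hf₃pos
  have hxq : (0 : ℚ) < (x : ℚ) := by exact_mod_cast hxpos
  have hu2 : (1 : ℚ) - (k₂ : ℚ) / (f₂ : ℚ) ≠ 0 := by
    intro h
    apply hu2'
    have h' : (k₂ : ℚ) = (f₂ : ℚ) := by
      field_simp at h
      linarith
    exact_mod_cast h'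
  have hu3 : (1 : ℚ) - (k₃ : ℚ) / (f₃ : ℚ) ≠ 0 := by
    intro h
    apply hu3'
    have h' : (k₃ : ℚ) = (f₃ : ℚ) := by
      field_simp at h
      linarith
    exact_mod_cast h'
  have hu4 : (1 : ℚ) - (k₄ : ℚ) / (x : ℚ) ≠ 0 := by
    intro h
    apply hu4'
    have h' : (k₄ : ℚ) = (x : ℚ) := by
      field_simp at h
      linarith
    exact_mod_cast h'
  have h0 : (a₂ : ℚ) * (f₂ : ℚ) + (a₃ : ℚ) * (f₃ : ℚ) + -(δ : ℚ) * (x : ℚ) = -1 := by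
    linarith
  have e2 : (a₂ : ℚ) * (f₂ : ℚ) * (1 - (k₂ : ℚ) / (f₂ : ℚ)) = a₂ * f₂ - a₂ * k₂ := by
    field_simp
  have e3 : (a₃ : ℚ) * (f₃ : ℚ) * (1 - (k₃ : ℚ) / (f₃ : ℚ)) = a₃ * f₃ - a₃ * k₃ := by
    field_simp
  have e4 : -(δ : ℚ) * (x : ℚ) * (1 - (k₄ : ℚ) / (x : ℚ)) = -δ * x + δ * k₄ := by
    field_simp
    ring
  have g2 : (a₂ : ℚ) * (f₂ : ℚ) * (1 - (k₂ : ℚ) / (f₂ : ℚ)) ^ 2 =
      a₂ * f₂ - 2 * (a₂ * k₂) + (k₂ : ℚ) * (k₂ : ℚ) / (f₂ : ℚ) * (a₂ : ℚ) := by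
    field_simp
    ring
  have g3 : (a₃ : ℚ) * (f₃ : ℚ) * (1 - (k₃ : ℚ) / (f₃ : ℚ)) ^ 2 =
      a₃ * f₃ - 2 * (a₃ * k₃) + (k₃ : ℚ) * (k₃ : ℚ) / (f₃ : ℚ) * (a₃ : ℚ) := by
    field_simp
    ring
  have g4 : -(δ : ℚ) * (x : ℚ) * (1 - (k₄ : ℚ) / (x : ℚ)) ^ 2 =
      -δ * x + 2 * (δ * k₄) + (k₄ : ℚ) * (k₄ : ℚ) / (x : ℚ) * (-(δ : ℚ)) := by
    field_simp
    ring
  have h1 : (a₂ : ℚ) * (f₂ : ℚ) * (1 - (k₂ : ℚ) / (f₂ : ℚ)) +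
      (a₃ : ℚ) * (f₃ : ℚ) * (1 - (k₃ : ℚ) / (f₃ : ℚ)) +
      -(δ : ℚ) * (x : ℚ) * (1 - (k₄ : ℚ) / (x : ℚ)) = 0 := by
    rw [e2, e3, e4]
    linear_combination hE0q - hE1q
  have h2 : (a₂ : ℚ) * (f₂ : ℚ) * (1 - (k₂ : ℚ) / (f₂ : ℚ)) ^ 2 +
      (a₃ : ℚ) * (f₃ : ℚ) * (1 - (k₃ : ℚ) / (f₃ : ℚ)) ^ 2 +
      -(δ : ℚ) * (x : ℚ) * (1 - (k₄ : ℚ) / (x : ℚ)) ^ 2 = 0 := by
    rw [g2, g3, g4]
    linear_combination hE0q - 2 * hE1q + hE2q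
  obtain ⟨l, hl0, hl⟩ := bl_vander _ _ _ _ _ _ h0 h1 h2 hu2 hu3 hu4
  have hlpos : (0 : ℚ) < l ^ 2 := by positivity
  have hfpos : (0 : ℚ) < (f₂ : ℚ) * (f₃ : ℚ) * (x : ℚ) := by positivity
  have hs : a₂ * a₃ * (-δ) = 1 ∨ a₂ * a₃ * (-δ) = -1 := by
    rcases ha₂ with h | h <;> rcases ha₃ with h' | h' <;> rcases hδ with h'' | h'' <;>
      rw [h, h', h''] <;> norm_num
  have hl' : ((a₂ * a₃ * (-δ) : ℤ) : ℚ) * ((f₂ : ℚ) * (f₃ : ℚ) * (x : ℚ)) = l ^ 2 := by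
    rw [← hl]
    push_cast
    ring
  have hs1 : a₂ * a₃ * (-δ) = 1 := by
    rcases hs with h | h
    · exact h
    · exfalso
      rw [h] at hl'
      push_cast at hl'
      linarith
  refine ⟨hs1, ?_, ?_⟩
  · rintro ⟨h, h', h''⟩
    rw [h, h', h''] at h0
    push_cast at h0
    linarith
  · rw [hs1] at hl'
    apply Rat.isSquare_natCast_iff.mp
    refine ⟨l, ?_⟩
    push_cast
    push_cast at hl'
    linarith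

end final

end Cfsg.Agent.Lib.Helper78
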