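import Mathlib
import Cfsg.Prelude.Def_Blocks
import Cfsg.Agent.Lib.Helper78.BLFinal

/-!
The index three case of the Brauer--Leonard theory for the prime two.
-/

set_option autoImplicit false

namespace Cfsg.Agent.Lib.Helper78

open Cfsg

section two

variable {G : Type*} [Group G] [Finite G] {p : ℕ} [Fact p.Prime] (M : Ideal Cfsg.AlgInt)
  (P : Sylow p G)

set_option maxHeartbeats 1000000 in
/-- the even case: the two nonprincipal nonexceptional characters are linear with sign one -/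
theorem bl_three_two (hM : Cfsg.IsPModular p M) (hab : IsMulCommutative P)
    (hP1 : Nat.card (P : Subgroup G) ≠ 1)
    (hCN : (Subgroup.centralizer ((P : Subgroup G) : Set G)).relIndex
      (Subgroup.normalizer ((P : Subgroup G) : Set G)) = 3)
    (hm2 : 3 + 1 < Nat.card (P : Subgroup G))
    (hfrob : ∀ y : G, y ∈ (P : Subgroup G) → y ≠ 1 → Subgroup.centralizer ({y} : Set G) ⊓
      Subgroup.normalizer ((P : Subgroup G) : Set G) =
        Subgroup.centralizer ((P : Subgroup G) : Set G))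
    (δ : ℤ) (η : blOrb (P : Subgroup G) → IrrCharacter G) (hD : BLData M P 0 δ η)
    [Fintype (blOrb (P : Subgroup G))]
    (χ₂ χ₃ : IrrCharacter G) (a₂ a₃ : ℤ) (ha₂ : a₂ = 1 ∨ a₂ = -1) (ha₃ : a₃ = 1 ∨ a₃ = -1)
    (hsplit : ∀ F : IrrCharacter G → ℂ, ∑ᶠ χ ∈ Cfsg.principalBlock M G, F χ =
      F (Cfsg.Agent.Lib.Helper77.trivIrr G) + F χ₂ + F χ₃ + ∑ q, F (η q))
    (hv₂ : ∀ z y : G, Cfsg.IsPPart p z y → y ∈ (P : Subgroup G) → y ≠ 1 →
      (χ₂ : G → ℂ) z = (a₂ : ℂ))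
    (hv₃ : ∀ z y : G, Cfsg.IsPPart p z y → y ∈ (P : Subgroup G) → y ≠ 1 →
      (χ₃ : G → ℂ) z = (a₃ : ℂ))
    (h12 : ∀ (q q' : blOrb (P : Subgroup G)) (g : G), ¬ p ∣ orderOf g →
      (η q : G → ℂ) g = (η q' : G → ℂ) g)
    (h13 : ∀ (q : blOrb (P : Subgroup G)) (g : G), ¬ p ∣ orderOf g →
      -(δ : ℂ) * (η q : G → ℂ) g +
        (1 + (a₂ : ℂ) * (χ₂ : G → ℂ) g + (a₃ : ℂ) * (χ₃ : G → ℂ) g) = 0)
    (hp2 : p = 2) :
    (Cfsg.charDegree (χ₂ : G → ℂ) = 1 ∧ a₂ = 1) ∧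
      (Cfsg.charDegree (χ₃ : G → ℂ) = 1 ∧ a₃ = 1) := by
  classical
  have hp : p.Prime := hM.1
  have hδ := hD.1
  have hab' := bl_comm P hab
  have hcard := bl_card_orb P hab 3 hCN hfrob
  -- the order of `P`
  obtain ⟨n, hn⟩ := IsPGroup.iff_card.mp P.isPGroup'
  have hn2 : Nat.card (P : Subgroup G) = 2 ^ n := by rw [hn, hp2]
  have hn4 : 4 ≤ n := by
    by_contra h
    have h' : n = 0 ∨ n = 1 ∨ n = 2 ∨ n = 3 := by omega
    rcases h' with h' | h' | h' | h' <;> rw [h'] at hn2 <;> omega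
  have h16 : (16 : ℤ) ∣ (Nat.card (P : Subgroup G) : ℤ) := by
    rw [hn2]
    have : (2 : ℕ) ^ 4 ∣ 2 ^ n := pow_dvd_pow 2 hn4
    exact_mod_cast this
  -- an involution of `P`
  obtain ⟨s, hs⟩ := exists_prime_orderOf_dvd_card' (G := (P : Subgroup G)) p (by
    rw [hn]
    exact dvd_pow_self p (by omega))
  have hs2 : orderOf (s : G) = 2 := by
    rw [Subgroup.orderOf_coe, hs, hp2]
  have hs1 : (s : G) ≠ 1 := by
    intro h
    rw [h, orderOf_one] at hs2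
    omega
  have hs1' : s ≠ 1 := fun h => hs1 (by rw [h]; rfl)
  have hss : s * s = 1 := by
    apply Subtype.ext
    rw [Subgroup.coe_mul, Subgroup.coe_one, ← sq, ← hs2, pow_orderOf_eq_one]
  obtain ⟨y, hyP, hy1, hA⟩ := bl_exists_y P hab hCN hm2 hfrob (s : G) hs2
  have hstar := bl_star_split M P hM hab hCN hfrob η χ₂ χ₃ hsplit (s : G) hs2 y hyP hy1 hA
  have h1reg : ¬ p ∣ orderOf (1 : G) := by
    rw [orderOf_one]
    exact fun h => hp.one_lt.ne' (Nat.dvd_one.mp h)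
  have hchar : ∀ χ : IrrCharacter G, IsCharacter G (χ : G → ℂ) := fun χ =>
    Cfsg.Agent.Lib.Helper80.isCharacter_of_isIrrCharacter χ.2
  obtain ⟨q₀⟩ : Nonempty (blOrb (P : Subgroup G)) := by
    have : 0 < Nat.card (blOrb (P : Subgroup G)) := by
      rcases Nat.eq_zero_or_pos (Nat.card (blOrb (P : Subgroup G))) with h | h
      · rw [h] at hcard
        omega
      · exact h
    exact (Nat.card_pos_iff.mp this).1
  have hf₂ := Cfsg.Agent.Lib.Helper80.char_one_eq_charDegree (hchar χ₂)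
  have hf₃ := Cfsg.Agent.Lib.Helper80.char_one_eq_charDegree (hchar χ₃)
  have hx := Cfsg.Agent.Lib.Helper80.char_one_eq_charDegree (hchar (η q₀))
  have hf₂pos := Cfsg.Agent.Lib.Helper80.charDegree_pos χ₂.2
  have hf₃pos := Cfsg.Agent.Lib.Helper80.charDegree_pos χ₃.2
  have hxpos := Cfsg.Agent.Lib.Helper80.charDegree_pos (η q₀).2
  have hc2 := bl_deg_congr (P : Subgroup G) χ₂ a₂ (fun w hw =>
    hv₂ w w (bl_isPPart_self P w w.2) w.2 (fun h => hw (Subtype.ext h)))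
  have hc3 := bl_deg_congr (P : Subgroup G) χ₃ a₃ (fun w hw =>
    hv₃ w w (bl_isPPart_self P w w.2) w.2 (fun h => hw (Subtype.ext h)))
  obtain ⟨f₂, hf₂def⟩ : ∃ f₂ : ℕ, Cfsg.charDegree (χ₂ : G → ℂ) = f₂ := ⟨_, rfl⟩
  obtain ⟨f₃, hf₃def⟩ : ∃ f₃ : ℕ, Cfsg.charDegree (χ₃ : G → ℂ) = f₃ := ⟨_, rfl⟩
  obtain ⟨x, hxdef⟩ : ∃ x : ℕ, Cfsg.charDegree (η q₀ : G → ℂ) = x := ⟨_, rfl⟩
  rw [hf₂def] at hf₂ hf₂pos hc2
  rw [hf₃def] at hf₃ hf₃pos hc3
  rw [hxdef] at hx hxpos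
  rw [hf₂def, hf₃def]
  have hy2 : (χ₂ : G → ℂ) y = (a₂ : ℂ) := hv₂ y y (bl_isPPart_self P y hyP) hyP hy1
  have hy3 : (χ₃ : G → ℂ) y = (a₃ : ℂ) := hv₃ y y (bl_isPPart_self P y hyP) hyP hy1
  have hs2v : (χ₂ : G → ℂ) s = (a₂ : ℂ) := hv₂ s s (bl_isPPart_self P s s.2) s.2 hs1
  have hs3v : (χ₃ : G → ℂ) s = (a₃ : ℂ) := hv₃ s s (bl_isPPart_self P s s.2) s.2 hs1
  -- the triple sum
  have hne : ∀ n n' : Subgroup.normalizer ((P : Subgroup G) : Set G),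
      blCj (P : Subgroup G) n s * blCj (P : Subgroup G) n' s * ⟨y, hyP⟩ ≠ 1 := by
    intro n n' h
    have hU : blCj (P : Subgroup G) n s * blCj (P : Subgroup G) n s = 1 := by
      rw [← map_mul, hss, map_one]
    have hU' : blCj (P : Subgroup G) n' s * blCj (P : Subgroup G) n' s = 1 := by
      rw [← map_mul, hss, map_one]
    have hyU : (⟨y, hyP⟩ : (P : Subgroup G)) =
        blCj (P : Subgroup G) n s * blCj (P : Subgroup G) n' s := by
      have h1 : (blCj (P : Subgroup G) n s * blCj (P : Subgroup G) n' s) *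
          (blCj (P : Subgroup G) n s * blCj (P : Subgroup G) n' s) = 1 := by
        calc (blCj (P : Subgroup G) n s * blCj (P : Subgroup G) n' s) *
            (blCj (P : Subgroup G) n s * blCj (P : Subgroup G) n' s)
            = blCj (P : Subgroup G) n s * (blCj (P : Subgroup G) n' s *
              blCj (P : Subgroup G) n s) * blCj (P : Subgroup G) n' s := by group
          _ = blCj (P : Subgroup G) n s * (blCj (P : Subgroup G) n s *
              blCj (P : Subgroup G) n' s) * blCj (P : Subgroup G) n' s := by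
            rw [hab' (blCj (P : Subgroup G) n' s)]
          _ = (blCj (P : Subgroup G) n s * blCj (P : Subgroup G) n s) *
              (blCj (P : Subgroup G) n' s * blCj (P : Subgroup G) n' s) := by group
          _ = 1 := by rw [hU, hU', one_mul]
      calc (⟨y, hyP⟩ : (P : Subgroup G)) = (blCj (P : Subgroup G) n s *
            blCj (P : Subgroup G) n' s)⁻¹ := by
            rw [eq_inv_iff_mul_eq_one, hab' ⟨y, hyP⟩]
            exact h
        _ = blCj (P : Subgroup G) n s * blCj (P : Subgroup G) n' s :=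
            inv_eq_of_mul_eq_one_left h1
    have hyU' : y = (blCj (P : Subgroup G) n s : G) * (blCj (P : Subgroup G) n' s : G) := by
      have := congrArg Subtype.val hyU
      rw [Subgroup.coe_mul] at this
      exact this
    refine hA _ _ (blCj (P : Subgroup G) n s).2 (blCj (P : Subgroup G) n' s).2 ?_ ?_ hyU'
    · rw [blCj_coe]
      exact isConj_iff.mpr ⟨n, rfl⟩
    · rw [blCj_coe]
      exact isConj_iff.mpr ⟨n', rfl⟩
  have htriple := bl_triple M P hab hfrob 3 hCN δ hδ η hD s s ⟨y, hyP⟩ hs1' hs1'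
    (fun h => hy1 (congrArg Subtype.val h)) hne
  have hsumY : ∑ q, (η q : G → ℂ) s * (η q : G → ℂ) s / (η q : G → ℂ) 1 * (η q : G → ℂ) y =
      1 / (x : ℂ) * (-(δ : ℂ) * ((3 : ℕ) : ℂ) ^ 2) := by
    rw [← htriple, Finset.mul_sum]
    refine Finset.sum_congr rfl fun q _ => ?_
    rw [h12 q q₀ 1 h1reg, hx]
    ring
  have hA2 : a₂ ^ 2 = 1 := by
    rcases ha₂ with h | h <;> rw [h] <;> norm_num
  have hA3 : a₃ ^ 2 = 1 := by
    rcases ha₃ with h | h <;> rw [h] <;> norm_num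
  have hδ2 : δ ^ 2 = 1 := by
    rcases hδ with h | h <;> rw [h] <;> norm_num
  have hA2c : (a₂ : ℂ) * (a₂ : ℂ) = 1 := by
    have : ((a₂ ^ 2 : ℤ) : ℂ) = 1 := by rw [hA2]; norm_num
    rw [← this]
    push_cast
    ring
  have hA3c : (a₃ : ℂ) * (a₃ : ℂ) = 1 := by
    have : ((a₃ ^ 2 : ℤ) : ℂ) = 1 := by rw [hA3]; norm_num
    rw [← this]
    push_cast
    ring
  rw [hsumY, hs2v, hs3v, hf₂, hf₃, hy2, hy3, hA2c, hA3c] at hstar
  have hE0 := h13 q₀ 1 h1reg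
  rw [hf₂, hf₃, hx] at hE0
  have hf₂c : (f₂ : ℂ) ≠ 0 := by exact_mod_cast hf₂pos.ne'
  have hf₃c : (f₃ : ℂ) ≠ 0 := by exact_mod_cast hf₃pos.ne'
  have hxc : (x : ℂ) ≠ 0 := by exact_mod_cast hxpos.ne'
  have hE2c : (f₂ : ℂ) * f₃ * x + a₂ * f₃ * x + a₃ * f₂ * x - 9 * δ * f₂ * f₃ = 0 := by
    have h := congrArg (fun z => (f₂ : ℂ) * f₃ * x * z) hstar
    simp only [mul_zero] at h
    rw [← h]
    field_simp
    push_cast
    ring
  have hE0z : δ * (x : ℤ) = 1 + a₂ * (f₂ : ℤ) + a₃ * (f₃ : ℤ) := by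
    have h : ((δ * (x : ℤ) : ℤ) : ℂ) = ((1 + a₂ * (f₂ : ℤ) + a₃ * (f₃ : ℤ) : ℤ) : ℂ) := by
      push_cast
      linear_combination -hE0
    exact_mod_cast h
  have hE2z : (f₂ : ℤ) * f₃ * x + a₂ * f₃ * x + a₃ * f₂ * x - 9 * δ * f₂ * f₃ = 0 := by
    have h : (((f₂ : ℤ) * f₃ * x + a₂ * f₃ * x + a₃ * f₂ * x - 9 * δ * f₂ * f₃ : ℤ) : ℂ) =
        ((0 : ℤ) : ℂ) := by
      push_cast
      exact hE2c
    exact_mod_cast h
  have hmain : (1 + a₂ * (f₂ : ℤ) + a₃ * (f₃ : ℤ)) *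
      (a₂ * (f₂ : ℤ) * (a₃ * (f₃ : ℤ)) + a₂ * (f₂ : ℤ) + a₃ * (f₃ : ℤ)) =
      9 * (a₂ * (f₂ : ℤ) * (a₃ * (f₃ : ℤ))) := by
    linear_combination (a₂ * a₃ * δ) * hE2z - (a₂ * a₃ * f₂ * f₃ + a₂ * f₂ + a₃ * f₃) * hE0z -
      (a₃ * δ * f₃ * x) * hA2 - (a₂ * δ * f₂ * x) * hA3 + (9 * a₂ * a₃ * f₂ * f₃) * hδ2
  have hd2 : (16 : ℤ) ∣ a₂ * (f₂ : ℤ) - 1 := by
    have h1 : a₂ * (f₂ : ℤ) - 1 = a₂ * ((f₂ : ℤ) - a₂) := by linear_combination hA2
    rw [h1]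
    exact Dvd.dvd.mul_left (dvd_trans h16 hc2) _
  have hd3 : (16 : ℤ) ∣ a₃ * (f₃ : ℤ) - 1 := by
    have h1 : a₃ * (f₃ : ℤ) - 1 = a₃ * ((f₃ : ℤ) - a₃) := by linear_combination hA3
    rw [h1]
    exact Dvd.dvd.mul_left (dvd_trans h16 hc3) _
  obtain ⟨hD2, hD3⟩ := bl_two_arith _ _ hd2 hd3 hmain
  have hf₂z : (0 : ℤ) < (f₂ : ℤ) := by exact_mod_cast hf₂pos
  have hf₃z : (0 : ℤ) < (f₃ : ℤ) := by exact_mod_cast hf₃pos
  constructor
  · rcases ha₂ with h | h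
    · rw [h, one_mul] at hD2
      exact ⟨by exact_mod_cast hD2, h⟩
    · rw [h] at hD2
      omega
  · rcases ha₃ with h | h
    · rw [h, one_mul] at hD3
      exact ⟨by exact_mod_cast hD3, h⟩
    · rw [h] at hD3
      omega

end two

end Cfsg.Agent.Lib.Helper78
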