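import Cfsg.Agent.Lib.Lead.FH.Defs

set_option autoImplicit false

namespace Cfsg.Agent.Lib.Helper78.FHB4

open Cfsg.Agent.Lib.Lead.FH

theorem b4_rat {n N : ℕ} {S : ℝ} (hN : 0 < N) (h : (n : ℝ) * S = 2 * N) : ∃ r : ℚ, S = r := by
  have hN' : (0 : ℝ) < N := by exact_mod_cast hN
  have hn : (n : ℝ) ≠ 0 := by
    intro h0
    rw [h0, zero_mul] at h
    linarith
  refine ⟨2 * N / n, ?_⟩
  push_cast
  rw [eq_div_iff hn]
  linarith

theorem b4_niven {k : ℕ} (hk : 2 ≤ k) (h : ∃ q : ℚ, Real.cos (2 * Real.pi / k) = q) :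
    k = 2 ∨ k = 3 ∨ k = 4 ∨ k = 6 := by
  have hk2 : (2 : ℝ) ≤ k := by exact_mod_cast hk
  have hk0 : (0 : ℝ) < k := by linarith
  have hpi := Real.pi_pos
  have hθ : ∃ r : ℚ, 2 * Real.pi / k = r * Real.pi := ⟨2 / k, by push_cast; ring⟩
  have hb : 2 * Real.pi / k ∈ Set.Icc 0 Real.pi := by
    constructor
    · positivity
    · rw [div_le_iff₀ hk0]; nlinarith
  have e : 2 * Real.pi = (2 * Real.pi / k) * k := by
    field_simp
  have hmem := niven_angle_eq hθ h hb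
  simp only [Set.mem_insert_iff, Set.mem_singleton_iff] at hmem
  rcases hmem with h0 | h1 | h2 | h3 | h4
  · exfalso
    rw [h0, zero_mul] at e
    linarith
  · right; right; right
    rw [h1] at e
    have h6 : Real.pi * ((k : ℝ) - 6) = 0 := by linarith
    rcases mul_eq_zero.mp h6 with h | h
    · exact absurd h hpi.ne'
    · have : (k : ℝ) = 6 := by linarith
      exact_mod_cast this
  · right; right; left
    rw [h2] at e
    have h6 : Real.pi * ((k : ℝ) - 4) = 0 := by linarith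
    rcases mul_eq_zero.mp h6 with h | h
    · exact absurd h hpi.ne'
    · have : (k : ℝ) = 4 := by linarith
      exact_mod_cast this
  · right; left
    rw [h3] at e
    have h6 : Real.pi * ((k : ℝ) - 3) = 0 := by linarith
    rcases mul_eq_zero.mp h6 with h | h
    · exact absurd h hpi.ne'
    · have : (k : ℝ) = 3 := by linarith
      exact_mod_cast this
  · left
    rw [h4] at e
    have h6 : Real.pi * ((k : ℝ) - 2) = 0 := by linarith
    rcases mul_eq_zero.mp h6 with h | h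
    · exact absurd h hpi.ne'
    · have : (k : ℝ) = 2 := by linarith
      exact_mod_cast this

theorem b4_xval_neg (a c : ℝ) {M j : ℕ} (hM : 0 < M) (hj : j ≤ M) :
    xval a c (2 * M) (M - j) = - xval a c (2 * M) j := by
  have hM' : (0 : ℝ) < M := by exact_mod_cast hM
  unfold xval
  have e : 2 * Real.pi * ((M - j : ℕ) : ℝ) / ((2 * M : ℕ) : ℝ)
      = Real.pi - 2 * Real.pi * (j : ℝ) / ((2 * M : ℕ) : ℝ) := by
    rw [Nat.cast_sub hj]
    push_cast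
    field_simp
  rw [e, Real.cos_pi_sub]
  ring

theorem b4_disc_pos {a c : ℝ} (ha : 0 < a) (hc : 0 < c) {M j : ℕ} (hj : 0 < j) (hjM : j < M) :
    0 < 4 * a * c - xval a c (2 * M) j ^ 2 := by
  have hj' : (0 : ℝ) < j := by exact_mod_cast hj
  have hjM' : (j : ℝ) < M := by exact_mod_cast hjM
  have hM' : (0 : ℝ) < M := by linarith
  have hpi := Real.pi_pos
  unfold xval
  obtain ⟨θ, hθ⟩ : ∃ θ : ℝ, θ = 2 * Real.pi * (j : ℝ) / ((2 * M : ℕ) : ℝ) := ⟨_, rfl⟩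
  rw [← hθ]
  have hθ0 : 0 < θ := by
    rw [hθ]; push_cast; positivity
  have hθπ : θ < Real.pi := by
    rw [hθ]; push_cast
    rw [div_lt_iff₀ (by positivity)]
    nlinarith
  have hs := Real.sin_pos_of_pos_of_lt_pi hθ0 hθπ
  have hsq : Real.sqrt (a * c) ^ 2 = a * c := Real.sq_sqrt (by positivity)
  have hcs := Real.sin_sq_add_cos_sq θ
  have key : 4 * a * c - (2 * Real.sqrt (a * c) * Real.cos θ) ^ 2
      = 4 * (a * c) * Real.sin θ ^ 2 := by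
    linear_combination (-4 * Real.cos θ ^ 2) * hsq + (-(4 * (a * c))) * hcs
  rw [key]
  positivity

theorem b4_even_rat {a c N M j : ℕ} (ha : 2 ≤ a) (hc : 2 ≤ c) (hN : 0 < N) (hj : 0 < j)
    (hjM : j < M)
    (hS : ∀ j, 0 < j → 2 * j < 2 * M → ∃ n : ℕ, (n : ℝ) * Sval a c (2 * M) j = 2 * N) :
    ∃ q : ℚ, xval a c (2 * M) j = q := by
  have ha' : (2 : ℝ) ≤ a := by exact_mod_cast ha
  have hc' : (2 : ℝ) ≤ c := by exact_mod_cast hc
  have hM1 : (1 : ℝ) ≤ M := by exact_mod_cast (by omega : 1 ≤ M)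
  obtain ⟨n₁, h₁⟩ := hS j hj (by omega)
  obtain ⟨n₂, h₂⟩ := hS (M - j) (by omega) (by omega)
  obtain ⟨r₁, hr₁⟩ := b4_rat hN h₁
  obtain ⟨r₂, hr₂⟩ := b4_rat hN h₂
  have hev : Even (2 * M) := even_two_mul M
  unfold Sval at hr₁ hr₂
  rw [if_pos hev] at hr₁ hr₂
  rw [b4_xval_neg _ _ (by omega) hjM.le] at hr₂
  have hD : 0 < 4 * (a : ℝ) * c - xval a c (2 * M) j ^ 2 :=
    b4_disc_pos (by linarith) (by linarith) hj hjM
  obtain ⟨x, hx⟩ : ∃ x : ℝ, x = xval a c (2 * M) j := ⟨_, rfl⟩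
  rw [← hx] at hr₁ hr₂ hD ⊢
  have hD' : 4 * (a : ℝ) * c - (-x) ^ 2 = 4 * (a : ℝ) * c - x ^ 2 := by ring
  rw [hD'] at hr₂
  rw [div_eq_iff hD.ne'] at hr₁ hr₂
  push_cast at hr₁ hr₂
  -- sum and difference
  have hK : 4 * (a : ℝ) * c < (a + c) * (a * c + 1) := by
    nlinarith [mul_nonneg (by linarith : (0 : ℝ) ≤ (a : ℝ) + c - 4)
      (by positivity : (0 : ℝ) ≤ (a : ℝ) * c + 1)]
  have hL : (0 : ℝ) < (a : ℝ) * c + 1 - a - c := by nlinarith
  have hsum : x ^ 2 * ((r₁ : ℝ) + r₂ - 4 * (2 * M))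
      = ((r₁ : ℝ) + r₂) * (4 * a * c) - 4 * (2 * M) * ((a + c) * (a * c + 1)) := by
    linear_combination hr₁ + hr₂
  have hdiff : x * (4 * (2 * (M : ℝ)) * ((a : ℝ) * c + 1 - a - c))
      = ((r₁ : ℝ) - r₂) * (4 * a * c - x ^ 2) := by
    linear_combination hr₁ - hr₂
  have hne : (r₁ : ℝ) + r₂ - 4 * (2 * M) ≠ 0 := by
    intro h0
    rw [h0, mul_zero] at hsum
    have h4 : (r₁ : ℝ) + r₂ = 4 * (2 * M) := by linarith
    rw [h4] at hsum
    nlinarith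
  have hs : x ^ 2 = (((r₁ + r₂) * (4 * a * c) - 4 * (2 * M) * ((a + c) * (a * c + 1)))
      / (r₁ + r₂ - 4 * (2 * M)) : ℚ) := by
    push_cast
    rw [eq_div_iff hne]
    exact hsum
  obtain ⟨s, hs'⟩ : ∃ s : ℚ, x ^ 2 = s := ⟨_, hs⟩
  have hne2 : 4 * (2 * (M : ℝ)) * ((a : ℝ) * c + 1 - a - c) ≠ 0 := by positivity
  refine ⟨(r₁ - r₂) * (4 * a * c - s) / (4 * (2 * M) * (a * c + 1 - a - c)), ?_⟩
  push_cast
  rw [eq_div_iff hne2, ← hs']
  exact hdiff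

theorem b4_cos_lt_one {m : ℕ} (hm : 2 ≤ m) : Real.cos (2 * Real.pi / m) < 1 := by
  have hm' : (2 : ℝ) ≤ m := by exact_mod_cast hm
  have hpi := Real.pi_pos
  have h0 : 0 < 2 * Real.pi / m := by positivity
  have h1 : 2 * Real.pi / m < 2 * Real.pi := by
    rw [div_lt_iff₀ (by linarith)]
    nlinarith
  have hne : Real.cos (2 * Real.pi / m) ≠ 1 := by
    intro h
    have := (Real.cos_eq_one_iff_of_lt_of_lt (by linarith) h1).mp h
    linarith
  exact lt_of_le_of_ne (Real.cos_le_one _) hne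

theorem b4_odd {m a N : ℕ} (hm : 2 ≤ m) (ha : 2 ≤ a) (hN : 0 < N) (ho : Odd m)
    (hS : ∀ j, 0 < j → 2 * j < m → ∃ n : ℕ, (n : ℝ) * Sval a a m j = 2 * N) :
    m = 3 := by
  have ha' : (2 : ℝ) ≤ a := by exact_mod_cast ha
  have hm' : (2 : ℝ) ≤ m := by exact_mod_cast hm
  obtain ⟨t, ht⟩ := ho
  by_cases h3 : m = 3
  · exact h3
  exfalso
  obtain ⟨n₁, h₁⟩ := hS 1 one_pos (by omega)
  obtain ⟨r, hr⟩ := b4_rat hN h₁
  have hne : ¬ Even m := by
    rw [Nat.not_even_iff_odd]; exact ⟨t, ht⟩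
  unfold Sval at hr
  rw [if_neg hne] at hr
  have hx : xval a a m 1 = 2 * a * Real.cos (2 * Real.pi / m) := by
    unfold xval
    rw [Real.sqrt_mul_self (by linarith), Nat.cast_one, mul_one]
  obtain ⟨C, hC⟩ : ∃ C : ℝ, C = Real.cos (2 * Real.pi / m) := ⟨_, rfl⟩
  have hC1 : C < 1 := by rw [hC]; exact b4_cos_lt_one hm
  rw [hx, ← hC] at hr
  have hD : 0 < 2 * (a : ℝ) - 2 * a * C := by nlinarith
  rw [div_eq_iff hD.ne'] at hr
  -- `2 m (a² + 1 - 2 a C) = r (2 a - 2 a C)`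
  have hlin : C * (2 * a * ((r : ℝ) - 2 * m)) = 2 * a * r - 2 * m * (a ^ 2 + 1) := by
    linear_combination hr
  have hne2 : 2 * (a : ℝ) * ((r : ℝ) - 2 * m) ≠ 0 := by
    intro h0
    rw [h0, mul_zero] at hlin
    have hr2 : (r : ℝ) = 2 * m := by
      rcases mul_eq_zero.mp h0 with h | h
      · linarith
      · linarith
    rw [hr2] at hlin
    have : 2 * (m : ℝ) * ((a : ℝ) - 1) ^ 2 = 0 := by linarith
    have h1 : (0 : ℝ) < ((a : ℝ) - 1) ^ 2 := by nlinarith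
    have h2 : (0 : ℝ) < 2 * (m : ℝ) * ((a : ℝ) - 1) ^ 2 := by positivity
    linarith
  have hrat : ∃ q : ℚ, Real.cos (2 * Real.pi / m) = q := by
    refine ⟨(2 * a * r - 2 * m * (a ^ 2 + 1)) / (2 * a * (r - 2 * m)), ?_⟩
    push_cast
    rw [eq_div_iff hne2, ← hC]
    exact hlin
  rcases b4_niven hm hrat with h | h | h | h <;> omega

theorem b4_even {M a c N : ℕ} (ha : 2 ≤ a) (hc : 2 ≤ c) (hN : 0 < N)
    (hS : ∀ j, 0 < j → 2 * j < 2 * M → ∃ n : ℕ, (n : ℝ) * Sval a c (2 * M) j = 2 * N)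
    (hM : 2 ≤ M) :
    M = 2 ∨ M = 3 ∨ M = 4 := by
  have ha' : (2 : ℝ) ≤ a := by exact_mod_cast ha
  have hc' : (2 : ℝ) ≤ c := by exact_mod_cast hc
  have hM' : (2 : ℝ) ≤ M := by exact_mod_cast hM
  have hac : (0 : ℝ) < (a : ℝ) * c := by nlinarith
  have hsq : Real.sqrt ((a : ℝ) * c) ^ 2 = (a : ℝ) * c := Real.sq_sqrt hac.le
  have hρ : 0 < Real.sqrt ((a : ℝ) * c) := Real.sqrt_pos.mpr hac
  obtain ⟨q₁, hq₁⟩ := b4_even_rat ha hc hN one_pos (by omega : 1 < M) hS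
  -- `cos (2π/M)` is rational
  have hang : 2 * Real.pi / M = 2 * (2 * Real.pi * ((1 : ℕ) : ℝ) / ((2 * M : ℕ) : ℝ)) := by
    push_cast
    field_simp
  obtain ⟨C, hC⟩ : ∃ C : ℝ,
      C = Real.cos (2 * Real.pi * ((1 : ℕ) : ℝ) / ((2 * M : ℕ) : ℝ)) := ⟨_, rfl⟩
  have hq₁' : 2 * Real.sqrt ((a : ℝ) * c) * C = q₁ := by
    rw [hC]; exact hq₁
  have hrat : ∃ q : ℚ, Real.cos (2 * Real.pi / M) = q := by
    refine ⟨q₁ ^ 2 / (2 * a * c) - 1, ?_⟩
    rw [hang, Real.cos_two_mul, ← hC]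
    push_cast
    rw [← hq₁', eq_sub_iff_add_eq, eq_div_iff (by positivity)]
    linear_combination (-(4 * C ^ 2)) * hsq
  rcases b4_niven hM hrat with h | h | h | h
  · exact Or.inl h
  · exact Or.inr (Or.inl h)
  · exact Or.inr (Or.inr h)
  · exfalso
    subst h
    obtain ⟨q₂, hq₂⟩ := b4_even_rat ha hc hN (by norm_num : 0 < 2) (by norm_num : 2 < 6) hS
    have e1 : 2 * Real.pi * ((1 : ℕ) : ℝ) / ((2 * 6 : ℕ) : ℝ) = Real.pi / 6 := by
      push_cast; ring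
    have e2 : 2 * Real.pi * ((2 : ℕ) : ℝ) / ((2 * 6 : ℕ) : ℝ) = Real.pi / 3 := by
      push_cast; ring
    unfold xval at hq₁ hq₂
    rw [e1, Real.cos_pi_div_six] at hq₁
    rw [e2, Real.cos_pi_div_three] at hq₂
    have hρ2 : Real.sqrt ((a : ℝ) * c) = q₂ := by linarith
    have hq₂0 : (q₂ : ℝ) ≠ 0 := by rw [← hρ2]; exact hρ.ne'
    have h3 : Real.sqrt 3 = ((q₁ / q₂ : ℚ) : ℝ) := by
      push_cast
      rw [eq_div_iff hq₂0, ← hρ2, ← hq₁]
      ring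
    have hirr : Irrational (Real.sqrt 3) := by
      have := Nat.prime_three.irrational_sqrt
      simpa using this
    exact hirr ⟨_, h3.symm⟩

end Cfsg.Agent.Lib.Helper78.FHB4

namespace Cfsg.Agent.Lib.Lead.FH

open Cfsg.Agent.Lib.Helper78.FHB4

theorem arith {m a c N : ℕ} (hm : 2 ≤ m) (ha : 2 ≤ a) (hc : 2 ≤ c) (hN : 0 < N)
    (hodd : Odd m → a = c)
    (hS : ∀ j, 0 < j → 2 * j < m → ∃ n : ℕ, (n : ℝ) * Sval a c m j = 2 * N) :
    m = 2 ∨ m = 3 ∨ m = 4 ∨ m = 6 ∨ m = 8 := by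
  rcases Nat.even_or_odd m with he | ho
  · obtain ⟨M, hM⟩ := he
    have hM2 : m = 2 * M := by omega
    subst hM2
    by_cases h1 : M = 1
    · left; omega
    · rcases b4_even ha hc hN hS (by omega) with h | h | h <;> omega
  · have hac := hodd ho
    subst hac
    right; left
    exact b4_odd hm ha hN ho hS

end Cfsg.Agent.Lib.Lead.FH
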