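import Cfsg.Agent.Lib.Lead.FH.Defs

set_option autoImplicit false

namespace Cfsg.Agent.Lib.Helper78.FHB5

open Matrix Cfsg.Agent.Lib.Lead.FH

theorem b5_alt_succ_right {M : Type*} [Monoid M] (x y : M) (k : ℕ) :
    alt x y (k + 1) = alt x y k * (if Even k then x else y) := by
  induction k generalizing x y with
  | zero =>
    show x * 1 = 1 * _
    rw [if_pos Even.zero, mul_one, one_mul]
  | succ k ih =>
    show x * alt y x (k + 1) = x * alt y x k * _
    rw [ih y x, mul_assoc]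
    congr 2
    by_cases hk : Even k
    · have : ¬ Even (k + 1) := by
        rw [Nat.even_add_one]; exact not_not.mpr hk
      rw [if_pos hk, if_neg this]
    · have : Even (k + 1) := by
        rw [Nat.even_add_one]; exact hk
      rw [if_neg hk, if_pos this]

theorem b5_ralt_eq {M : Type*} [Monoid M] (x y : M) (k : ℕ) :
    ralt x y k = if Even k then alt y x k else alt x y k := by
  induction k generalizing x y with
  | zero =>
    rw [if_pos Even.zero]; rfl
  | succ k ih =>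
    show ralt y x k * x = _
    rw [ih y x]
    by_cases hk : Even k
    · have : ¬ Even (k + 1) := by
        rw [Nat.even_add_one]; exact not_not.mpr hk
      rw [if_pos hk, if_neg this, b5_alt_succ_right, if_pos hk]
    · have : Even (k + 1) := by
        rw [Nat.even_add_one]; exact hk
      rw [if_neg hk, if_pos this, b5_alt_succ_right, if_neg hk]

theorem b5_alt_two_mul {M : Type*} [Monoid M] (x y : M) (i : ℕ) :
    alt x y (2 * i) = (x * y) ^ i := by
  induction i with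
  | zero =>
    show (1 : M) = _
    rw [pow_zero]
  | succ i ih =>
    rw [show 2 * (i + 1) = 2 * i + 1 + 1 by ring]
    show x * (y * alt x y (2 * i)) = _
    rw [ih, pow_succ', mul_assoc]

theorem b5_mul_pow_succ {M : Type*} [Monoid M] (x y : M) (i : ℕ) :
    (x * y) ^ (i + 1) = x * (y * x) ^ i * y := by
  induction i with
  | zero => simp
  | succ i ih =>
    rw [pow_succ, ih, pow_succ]
    simp only [mul_assoc]

theorem b5_trace_pow {n : Type*} [Fintype n] [DecidableEq n] (x y : Matrix n n ℝ) (i : ℕ) :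
    Matrix.trace ((x * y) ^ i) = Matrix.trace ((y * x) ^ i) := by
  cases i with
  | zero => simp
  | succ i =>
    rw [b5_mul_pow_succ, Matrix.trace_mul_comm, ← mul_assoc, ← pow_succ']

theorem b5_trace_ralt {n : Type*} [Fintype n] [DecidableEq n] (x y : Matrix n n ℝ) (k : ℕ) :
    Matrix.trace (ralt x y k) = Matrix.trace (alt x y k) := by
  rw [b5_ralt_eq]
  by_cases hk : Even k
  · rw [if_pos hk]
    obtain ⟨i, rfl⟩ := hk
    rw [show i + i = 2 * i by ring, b5_alt_two_mul, b5_alt_two_mul, b5_trace_pow]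
  · rw [if_neg hk]

theorem b5_ralt_braid {M : Type*} [Monoid M] (x y : M) (m : ℕ) (h : alt x y m = alt y x m) :
    ralt x y m = ralt y x m := by
  rw [b5_ralt_eq, b5_ralt_eq]
  by_cases hk : Even m
  · rw [if_pos hk, if_pos hk, h]
  · rw [if_neg hk, if_neg hk, h]

/-! ### the two commutation relations of the Casimir sum (self-contained copy of WP-B1 (ii), (iii)) -/

theorem b5_commute_alt {M : Type*} [Monoid M] (x y z : M) (hx : Commute x z) (hy : Commute y z)
    (k : ℕ) : Commute (alt x y k) z := by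
  induction k generalizing x y with
  | zero => exact Commute.one_left z
  | succ k ih => exact hx.mul_left (ih y x hy hx)

theorem b5_term {R : Type*} [Ring R] [Algebra ℝ R] {a : ℝ} (ha : a ≠ 0) (q : ℝ)
    {A A' Q Q' : R} (hA : A * A = a • (1 : R) + (a - 1) • A)
    (hA' : A' * A' = a • (1 : R) + (a - 1) • A') (hAA : Commute A A') (hQ : Commute Q A') :
    A * (q⁻¹ • (Q * Q') + (a * q)⁻¹ • ((A * Q) * (A' * Q')))
      = A' * (q⁻¹ • (Q * Q') + (a * q)⁻¹ • ((A * Q) * (A' * Q'))) := by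
  have hq : (a * q)⁻¹ * a = q⁻¹ := by
    rw [mul_inv, mul_comm a⁻¹, mul_assoc, inv_mul_cancel₀ ha, mul_one]
  have e1 : A * ((A * Q) * (A' * Q')) = a • (Q * (A' * Q')) + (a - 1) • (A * (Q * (A' * Q'))) := by
    rw [mul_assoc A Q, ← mul_assoc A A, hA, add_mul, smul_mul_assoc, smul_mul_assoc, one_mul]
  have e2 : A' * (Q * Q') = Q * (A' * Q') := by
    rw [← mul_assoc, ← hQ.eq, mul_assoc]
  have e3 : A' * ((A * Q) * (A' * Q')) = a • (A * (Q * Q')) + (a - 1) • (A * (Q * (A' * Q'))) := by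
    have : A' * ((A * Q) * (A' * Q')) = A * (Q * ((A' * A') * Q')) := by
      rw [← mul_assoc A' (A * Q), ← mul_assoc A' A, ← hAA.eq, mul_assoc A A' Q, ← hQ.eq]
      simp only [mul_assoc]
    rw [this, hA', add_mul, smul_mul_assoc, smul_mul_assoc, one_mul, mul_add, mul_add,
      mul_smul_comm, mul_smul_comm, mul_smul_comm, mul_smul_comm]
  rw [mul_add, mul_add, mul_smul_comm, mul_smul_comm, mul_smul_comm, mul_smul_comm, e1, e2, e3,
    smul_add, smul_add]
  simp only [smul_smul]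
  rw [hq]
  abel

theorem b5_cas_mul_left_A {R : Type*} [Ring R] [Algebra ℝ R] {m : ℕ} {a c : ℝ} (ha : a ≠ 0)
    {A C A' C' : R} (h : HeckePair m a c A C)
    (h' : HeckePair m a c A' C') (hAA : Commute A A') (hCA : Commute C A') :
    A * cas m a c A C A' C' = A' * cas m a c A C A' C' := by
  unfold cas
  rw [Finset.mul_sum, Finset.mul_sum]
  refine Finset.sum_congr rfl fun k _ => ?_
  exact b5_term ha (wt c a k) h.sqA h'.sqA hAA (b5_commute_alt C A A' hCA hAA k)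

theorem b5_cas_swap {R : Type*} [Ring R] [Algebra ℝ R] {m : ℕ} {a c : ℝ}
    (hwt : wt a c m = wt c a m) {A C A' C' : R} (h : HeckePair m a c A C)
    (h' : HeckePair m a c A' C') :
    cas m a c A C A' C' = cas m c a C A C' A' := by
  obtain ⟨f, hf⟩ : ∃ f : ℕ → R, f = fun k => (wt c a k)⁻¹ • (alt C A k * alt C' A' k) :=
    ⟨_, rfl⟩
  obtain ⟨g, hg⟩ : ∃ g : ℕ → R, g = fun k => (wt a c k)⁻¹ • (alt A C k * alt A' C' k) :=
    ⟨_, rfl⟩
  have h1 : cas m a c A C A' C' = ∑ k ∈ Finset.range m, f k + ∑ k ∈ Finset.range m, g (k + 1) := by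
    unfold cas
    rw [Finset.sum_add_distrib, hf, hg]
  have h2 : cas m c a C A C' A' = ∑ k ∈ Finset.range m, g k + ∑ k ∈ Finset.range m, f (k + 1) := by
    unfold cas
    rw [Finset.sum_add_distrib, hf, hg]
  have h0 : f 0 = g 0 := by
    rw [hf, hg]; rfl
  have hm : f m = g m := by
    rw [hf, hg]
    show (wt c a m)⁻¹ • (alt C A m * alt C' A' m) = (wt a c m)⁻¹ • (alt A C m * alt A' C' m)
    rw [hwt, h.braid, h'.braid]
  have hg1 : ∑ k ∈ Finset.range m, g (k + 1) + g 0 = ∑ k ∈ Finset.range m, g k + g m := by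
    rw [← Finset.sum_range_succ', Finset.sum_range_succ]
  have hf1 : ∑ k ∈ Finset.range m, f (k + 1) + f 0 = ∑ k ∈ Finset.range m, f k + f m := by
    rw [← Finset.sum_range_succ', Finset.sum_range_succ]
  have key : cas m a c A C A' C' + f 0 = cas m c a C A C' A' + f 0 := by
    rw [h1, h2, add_assoc, add_assoc, hf1, h0, hg1, hm]
    abel
  exact add_right_cancel key

theorem b5_cas_mul_left_C {R : Type*} [Ring R] [Algebra ℝ R] {m : ℕ} {a c : ℝ}
    (hc : c ≠ 0) (hwt : wt a c m = wt c a m) {A C A' C' : R} (h : HeckePair m a c A C)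
    (h' : HeckePair m a c A' C') (hAC : Commute A C') (hCC : Commute C C') :
    C * cas m a c A C A' C' = C' * cas m a c A C A' C' := by
  rw [b5_cas_swap hwt h h']
  exact b5_cas_mul_left_A hc ⟨h.sqC, h.sqA, h.braid.symm⟩ ⟨h'.sqC, h'.sqA, h'.braid.symm⟩ hCC hAC

/-- the ambient ring -/
abbrev B5End : Type := Module.End ℝ (Matrix (Fin 2) (Fin 2) ℝ)

theorem b5_alt_mulLeft (x y : Matrix (Fin 2) (Fin 2) ℝ) (k : ℕ) :
    alt (LinearMap.mulLeft ℝ x : B5End) (LinearMap.mulLeft ℝ y) k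
      = LinearMap.mulLeft ℝ (alt x y k) := by
  induction k generalizing x y with
  | zero =>
    show (1 : B5End) = LinearMap.mulLeft ℝ (1 : Matrix (Fin 2) (Fin 2) ℝ)
    rw [LinearMap.mulLeft_one]; rfl
  | succ k ih =>
    show (LinearMap.mulLeft ℝ x : B5End) * alt (LinearMap.mulLeft ℝ y : B5End)
      (LinearMap.mulLeft ℝ x) k = LinearMap.mulLeft ℝ (x * alt y x k)
    rw [ih y x, LinearMap.mulLeft_mul]; rfl

theorem b5_alt_mulRight (x y : Matrix (Fin 2) (Fin 2) ℝ) (k : ℕ) :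
    alt (LinearMap.mulRight ℝ x : B5End) (LinearMap.mulRight ℝ y) k
      = LinearMap.mulRight ℝ (ralt x y k) := by
  induction k generalizing x y with
  | zero =>
    show (1 : B5End) = LinearMap.mulRight ℝ (1 : Matrix (Fin 2) (Fin 2) ℝ)
    rw [LinearMap.mulRight_one]; rfl
  | succ k ih =>
    show (LinearMap.mulRight ℝ x : B5End) * alt (LinearMap.mulRight ℝ y : B5End)
      (LinearMap.mulRight ℝ x) k = LinearMap.mulRight ℝ (ralt y x k * x)
    rw [ih y x, LinearMap.mulRight_mul]; rfl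

theorem b5_hecke_left {m : ℕ} {a c : ℝ} {RA RC : Matrix (Fin 2) (Fin 2) ℝ}
    (h : HeckePair m a c RA RC) :
    HeckePair m a c (LinearMap.mulLeft ℝ RA : B5End) (LinearMap.mulLeft ℝ RC) := by
  refine ⟨?_, ?_, ?_⟩
  · refine LinearMap.ext fun L => ?_
    show RA * (RA * L) = a • L + (a - 1) • (RA * L)
    rw [← mul_assoc, h.sqA, add_mul, smul_mul_assoc, smul_mul_assoc, one_mul]
  · refine LinearMap.ext fun L => ?_
    show RC * (RC * L) = c • L + (c - 1) • (RC * L)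
    rw [← mul_assoc, h.sqC, add_mul, smul_mul_assoc, smul_mul_assoc, one_mul]
  · rw [b5_alt_mulLeft, b5_alt_mulLeft, h.braid]

theorem b5_hecke_right {m : ℕ} {a c : ℝ} {RA RC : Matrix (Fin 2) (Fin 2) ℝ}
    (h : HeckePair m a c RA RC) :
    HeckePair m a c (LinearMap.mulRight ℝ RA : B5End) (LinearMap.mulRight ℝ RC) := by
  refine ⟨?_, ?_, ?_⟩
  · refine LinearMap.ext fun L => ?_
    show L * RA * RA = a • L + (a - 1) • (L * RA)
    rw [mul_assoc, h.sqA, mul_add, mul_smul_comm, mul_smul_comm, mul_one]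
  · refine LinearMap.ext fun L => ?_
    show L * RC * RC = c • L + (c - 1) • (L * RC)
    rw [mul_assoc, h.sqC, mul_add, mul_smul_comm, mul_smul_comm, mul_one]
  · rw [b5_alt_mulRight, b5_alt_mulRight, b5_ralt_braid _ _ _ h.braid]

/-- the functional `Ψ ↦ ∑_{i,l} Ψ(E_il)_{il}` -/
noncomputable def b5Tau : B5End →ₗ[ℝ] ℝ where
  toFun Ψ := Ψ (Matrix.single 0 0 1) 0 0 + Ψ (Matrix.single 0 1 1) 0 1
    + Ψ (Matrix.single 1 0 1) 1 0 + Ψ (Matrix.single 1 1 1) 1 1
  map_add' Ψ₁ Ψ₂ := by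
    simp only [LinearMap.add_apply, Matrix.add_apply]; ring
  map_smul' r Ψ := by
    simp only [LinearMap.smul_apply, Matrix.smul_apply, smul_eq_mul, RingHom.id_apply]; ring

theorem b5Tau_mul (X Y : Matrix (Fin 2) (Fin 2) ℝ) :
    b5Tau ((LinearMap.mulLeft ℝ X : B5End) * LinearMap.mulRight ℝ Y)
      = Matrix.trace X * Matrix.trace Y := by
  show (X * (Matrix.single 0 0 1 * Y) : Matrix (Fin 2) (Fin 2) ℝ) 0 0
    + (X * (Matrix.single 0 1 1 * Y) : Matrix (Fin 2) (Fin 2) ℝ) 0 1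
    + (X * (Matrix.single 1 0 1 * Y) : Matrix (Fin 2) (Fin 2) ℝ) 1 0
    + (X * (Matrix.single 1 1 1 * Y) : Matrix (Fin 2) (Fin 2) ℝ) 1 1 = _
  simp [Matrix.mul_apply, Fin.sum_univ_two, Matrix.trace_fin_two]
  ring

theorem b5Tau_scalar (Ψ : B5End)
    (hΨ : ∀ L, ∃ r : ℝ, Ψ L = r • (1 : Matrix (Fin 2) (Fin 2) ℝ)) :
    Ψ 1 = b5Tau Ψ • (1 : Matrix (Fin 2) (Fin 2) ℝ) := by
  have h1 : (1 : Matrix (Fin 2) (Fin 2) ℝ) = Matrix.single 0 0 1 + Matrix.single 1 1 1 := by
    ext i j; fin_cases i <;> fin_cases j <;> simp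
  obtain ⟨r₀, h₀⟩ := hΨ (Matrix.single 0 0 1)
  obtain ⟨r₁, h₁⟩ := hΨ (Matrix.single 0 1 1)
  obtain ⟨r₂, h₂⟩ := hΨ (Matrix.single 1 0 1)
  obtain ⟨r₃, h₃⟩ := hΨ (Matrix.single 1 1 1)
  have ht : b5Tau Ψ = r₀ + r₃ := by
    show Ψ (Matrix.single 0 0 1) 0 0 + Ψ (Matrix.single 0 1 1) 0 1
      + Ψ (Matrix.single 1 0 1) 1 0 + Ψ (Matrix.single 1 1 1) 1 1 = _
    rw [h₀, h₁, h₂, h₃]
    simp
  rw [ht]
  conv_lhs => rw [h1]
  rw [map_add, h₀, h₃, add_smul]

theorem b5_cas_apply (m : ℕ) (a c : ℝ) (RA RC L : Matrix (Fin 2) (Fin 2) ℝ) :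
    (cas m a c (LinearMap.mulLeft ℝ RA : B5End) (LinearMap.mulLeft ℝ RC)
      (LinearMap.mulRight ℝ RA) (LinearMap.mulRight ℝ RC)) L
    = ∑ k ∈ Finset.range m, ((wt c a k)⁻¹ • (alt RC RA k * (L * ralt RC RA k))
      + (wt a c (k + 1))⁻¹ • (alt RA RC (k + 1) * (L * ralt RA RC (k + 1)))) := by
  unfold cas
  rw [LinearMap.sum_apply]
  refine Finset.sum_congr rfl fun k _ => ?_
  rw [b5_alt_mulLeft, b5_alt_mulLeft, b5_alt_mulRight, b5_alt_mulRight]
  rfl

theorem b5_tau_cas (m : ℕ) (a c : ℝ) (RA RC : Matrix (Fin 2) (Fin 2) ℝ) :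
    b5Tau (cas m a c (LinearMap.mulLeft ℝ RA : B5End) (LinearMap.mulLeft ℝ RC)
      (LinearMap.mulRight ℝ RA) (LinearMap.mulRight ℝ RC)) = Ssum m a c RA RC := by
  unfold cas Ssum
  rw [map_sum]
  refine Finset.sum_congr rfl fun k _ => ?_
  rw [b5_alt_mulLeft, b5_alt_mulLeft, b5_alt_mulRight, b5_alt_mulRight, map_add, map_smul,
    map_smul, b5Tau_mul, b5Tau_mul, b5_trace_ralt, b5_trace_ralt, smul_eq_mul, smul_eq_mul]
  ring

end Cfsg.Agent.Lib.Helper78.FHB5

namespace Cfsg.Agent.Lib.Lead.FH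

open Matrix Cfsg.Agent.Lib.Helper78.FHB5

theorem psi_eq_Ssum {m : ℕ} {a c : ℝ} (ha : a ≠ 0) (hc : c ≠ 0) (hwt : wt a c m = wt c a m)
    {RA RC : Matrix (Fin 2) (Fin 2) ℝ} (h : HeckePair m a c RA RC)
    (hcomm : ∀ M : Matrix (Fin 2) (Fin 2) ℝ, M * RA = RA * M → M * RC = RC * M →
      ∃ r : ℝ, M = r • (1 : Matrix (Fin 2) (Fin 2) ℝ)) :
    psi m a c RA RC = Ssum m a c RA RC • (1 : Matrix (Fin 2) (Fin 2) ℝ) := by
  obtain ⟨Φ, hΦ⟩ : ∃ Φ : B5End, Φ = cas m a c (LinearMap.mulLeft ℝ RA : B5End)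
      (LinearMap.mulLeft ℝ RC) (LinearMap.mulRight ℝ RA) (LinearMap.mulRight ℝ RC) := ⟨_, rfl⟩
  have hL := b5_hecke_left h
  have hR := b5_hecke_right h
  have hA : (LinearMap.mulLeft ℝ RA : B5End) * Φ = LinearMap.mulRight ℝ RA * Φ := by
    rw [hΦ]
    exact b5_cas_mul_left_A ha hL hR (LinearMap.commute_mulLeft_right _ _)
      (LinearMap.commute_mulLeft_right _ _)
  have hC : (LinearMap.mulLeft ℝ RC : B5End) * Φ = LinearMap.mulRight ℝ RC * Φ := by
    rw [hΦ]
    exact b5_cas_mul_left_C hc hwt hL hR (LinearMap.commute_mulLeft_right _ _)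
      (LinearMap.commute_mulLeft_right _ _)
  have hsc : ∀ L, ∃ r : ℝ, Φ L = r • (1 : Matrix (Fin 2) (Fin 2) ℝ) := by
    intro L
    refine hcomm (Φ L) ?_ ?_
    · have := congrArg (fun Ψ : B5End => Ψ L) hA
      exact this.symm
    · have := congrArg (fun Ψ : B5End => Ψ L) hC
      exact this.symm
  have h1 : psi m a c RA RC = Φ 1 := by
    rw [hΦ, b5_cas_apply]
    unfold psi
    refine Finset.sum_congr rfl fun k _ => ?_
    rw [one_mul, one_mul]
  rw [h1, b5Tau_scalar Φ hsc, hΦ, b5_tau_cas]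

end Cfsg.Agent.Lib.Lead.FH
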