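import Mathlib
import Cfsg.Agent.Lib.Helper42.OddAutAb

/-!
Automorphisms of odd order of the homocyclic group of rank two and exponent `2 ^ m`.
-/

set_option autoImplicit false

namespace Cfsg.Agent.Lib.Helper78

/-- involutions of `ZMod (2 ^ m)` -/
theorem ht_zmod_invol (m : ℕ) (hm : 1 ≤ m) (a : ZMod (2 ^ m)) (ha : a + a = 0) (ha0 : a ≠ 0) :
    a.val = 2 ^ (m - 1) := by
  haveI : NeZero (2 ^ m) := ⟨by positivity⟩
  have h : ((a.val + a.val : ℕ) : ZMod (2 ^ m)) = 0 := by
    push_cast
    rw [ZMod.natCast_zmod_val]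
    exact ha
  have hdvd : 2 ^ m ∣ a.val + a.val := (ZMod.natCast_eq_zero_iff _ _).mp h
  have hlt : a.val < 2 ^ m := ZMod.val_lt a
  have hpos : 0 < a.val := Nat.pos_of_ne_zero (fun h0 => ha0 ((ZMod.val_eq_zero a).mp h0))
  obtain ⟨c, hc⟩ := hdvd
  have hc1 : c = 1 := by
    rcases Nat.lt_or_ge c 1 with h | h
    · have hc0 : c = 0 := by omega
      rw [hc0, mul_zero] at hc
      omega
    · rcases Nat.lt_or_ge c 2 with h' | h'
      · omega
      · exfalso
        have : 2 ^ m * 2 ≤ 2 ^ m * c := Nat.mul_le_mul_left _ h'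
        omega
  rw [hc1, mul_one] at hc
  have hpow : 2 ^ m = 2 * 2 ^ (m - 1) := by
    rw [← pow_succ', Nat.sub_add_cancel hm]
  omega

section homo

variable {Q : Type*} [Group Q] (m : ℕ)
  (e : Q ≃* Multiplicative (ZMod (2 ^ m) × ZMod (2 ^ m)))

include e in
theorem ht_comm : ∀ x y : Q, x * y = y * x := by
  intro x y
  apply e.injective
  rw [map_mul, map_mul, mul_comm]

include e in
theorem ht_card : Nat.card Q = 2 ^ m * 2 ^ m := by
  rw [Nat.card_congr e.toEquiv, Nat.card_congr Multiplicative.toAdd, Nat.card_prod,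
    Nat.card_zmod]

include e in
theorem ht_finite : Finite Q := by
  apply Nat.finite_of_card_ne_zero
  rw [ht_card m e]
  positivity

include e in
/-- the number of involutions -/
theorem ht_card_invol (hm : 1 ≤ m) : Nat.card {w : Q // w ≠ 1 ∧ w * w = 1} ≤ 3 := by
  classical
  haveI : NeZero (2 ^ m) := ⟨by positivity⟩
  have hadd : ∀ w : {w : Q // w ≠ 1 ∧ w * w = 1},
      (Multiplicative.toAdd (e w.1)).1 + (Multiplicative.toAdd (e w.1)).1 = 0 ∧
      (Multiplicative.toAdd (e w.1)).2 + (Multiplicative.toAdd (e w.1)).2 = 0 := by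
    intro w
    have h1 : e w.1 * e w.1 = 1 := by rw [← map_mul, w.2.2, map_one]
    have h2 : Multiplicative.toAdd (e w.1) + Multiplicative.toAdd (e w.1) = 0 := by
      rw [← toAdd_mul, h1, toAdd_one]
    exact ⟨congrArg Prod.fst h2, congrArg Prod.snd h2⟩
  have hne : ∀ w : {w : Q // w ≠ 1 ∧ w * w = 1},
      ((decide ((Multiplicative.toAdd (e w.1)).1 ≠ 0), decide ((Multiplicative.toAdd (e w.1)).2 ≠ 0)) :
        Bool × Bool) ≠ (false, false) := by
    intro w h
    rw [Prod.mk.injEq] at h
    have h1 : (Multiplicative.toAdd (e w.1)).1 = 0 := by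
      have := h.1
      simpa using this
    have h2 : (Multiplicative.toAdd (e w.1)).2 = 0 := by
      have := h.2
      simpa using this
    have h3 : Multiplicative.toAdd (e w.1) = 0 := Prod.ext h1 h2
    have h4 : e w.1 = 1 := by
      apply Multiplicative.toAdd.injective
      rw [h3, toAdd_one]
    exact w.2.1 (e.injective (by rw [h4, map_one]))
  have hinj : Function.Injective (fun w : {w : Q // w ≠ 1 ∧ w * w = 1} =>
      (⟨_, hne w⟩ : {x : Bool × Bool // x ≠ (false, false)})) := by
    intro w w' h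
    have h' := congrArg Subtype.val h
    simp only [Prod.mk.injEq, decide_eq_decide] at h'
    have key : ∀ a a' : ZMod (2 ^ m), a + a = 0 → a' + a' = 0 → (a ≠ 0 ↔ a' ≠ 0) → a = a' := by
      intro a a' ha ha' hiff
      by_cases h0 : a = 0
      · have : a' = 0 := by
          by_contra h1
          exact (hiff.mpr h1) h0
        rw [h0, this]
      · have h1 := hiff.mp h0
        apply ZMod.val_injective
        rw [ht_zmod_invol m hm a ha h0, ht_zmod_invol m hm a' ha' h1]
    have e1 := key _ _ (hadd w).1 (hadd w').1 h'.1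
    have e2 := key _ _ (hadd w).2 (hadd w').2 h'.2
    have e3 : Multiplicative.toAdd (e w.1) = Multiplicative.toAdd (e w'.1) := Prod.ext e1 e2
    exact Subtype.ext (e.injective (Multiplicative.toAdd.injective e3))
  have h3 : Nat.card {x : Bool × Bool // x ≠ (false, false)} = 3 := by
    rw [Nat.card_eq_fintype_card]
    decide
  rw [← h3]
  exact Nat.card_le_card_of_injective _ hinj

include e in
/-- an automorphism of odd order fixing a nonidentity element is trivial -/
theorem ht_aut_fix (γ : MulAut Q) (k : ℕ) (hk : Odd k) (hγ : γ ^ k = 1) (y : Q) (hy : y ≠ 1)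
    (hfix : γ y = y) : γ = 1 := by
  haveI : Finite Q := ht_finite m e
  haveI : NeZero (2 ^ m) := ⟨by positivity⟩
  by_contra hne
  have hA : ∀ g : Q, ∃ N : ℕ, g ^ 2 ^ N = 1 := by
    intro g
    refine ⟨m + m, ?_⟩
    rw [pow_add, ← ht_card m e]
    exact pow_card_eq_one'
  have hgen : ∀ g : Q, ∃ i j : ℕ, g = e.symm (Multiplicative.ofAdd (1, 0)) ^ i *
      e.symm (Multiplicative.ofAdd (0, 1)) ^ j := by
    intro g
    refine ⟨(Multiplicative.toAdd (e g)).1.val, (Multiplicative.toAdd (e g)).2.val, ?_⟩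
    apply e.injective
    rw [map_mul, map_pow, map_pow, e.apply_symm_apply, e.apply_symm_apply]
    apply Multiplicative.toAdd.injective
    rw [toAdd_mul, toAdd_pow, toAdd_pow, toAdd_ofAdd, toAdd_ofAdd]
    ext
    · simp
    · simp
  exact hy ((Cfsg.Agent.Lib.Helper42.OddAut.abelian_case (ht_comm m e) hA _ _ hgen γ k hk hγ
    hne).1 y hfix)

end homo

end Cfsg.Agent.Lib.Helper78
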