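import Mathlib
import Cfsg.Prelude.Def_Blocks
import Cfsg.Prelude.Def_Solvable
import Cfsg.Agent.Lib.Helper78.BLTwo
import Cfsg.Agent.Lib.Helper78.HomoTwo
import Cfsg.Agent.Lib.Helper50.Burnside
import Cfsg.Agent.Lib.Helper22.PComp
import Cfsg.Agent.Lib.Helper79.DefectZeroTwo

/-!
Groups with a homocyclic Sylow 2-subgroup of rank two and exponent at least four (Brauer).
-/

set_option autoImplicit false

namespace Cfsg.Agent.Lib.Helper78

open Cfsg

universe u

section prep

variable {G : Type*} [Group G] [Finite G] (P : Sylow 2 G) (m : ℕ)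
  (e : (P : Subgroup G) ≃* Multiplicative (ZMod (2 ^ m) × ZMod (2 ^ m)))

include e in
theorem ht_le_centralizer :
    (P : Subgroup G) ≤ Subgroup.centralizer ((P : Subgroup G) : Set G) := by
  have hcomm := ht_comm m e
  intro a ha
  rw [Subgroup.mem_centralizer_iff]
  intro b hb
  exact congrArg Subtype.val (hcomm ⟨b, hb⟩ ⟨a, ha⟩)

include e in
theorem ht_odd : Odd ((Subgroup.centralizer ((P : Subgroup G) : Set G)).relIndex
    (Subgroup.normalizer ((P : Subgroup G) : Set G))) := by
  haveI : Fact (Nat.Prime 2) := ⟨Nat.prime_two⟩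
  have hPC := ht_le_centralizer P m e
  have h1 : (Subgroup.centralizer ((P : Subgroup G) : Set G)).relIndex
      (Subgroup.normalizer ((P : Subgroup G) : Set G)) ∣
      (P : Subgroup G).relIndex (Subgroup.normalizer ((P : Subgroup G) : Set G)) :=
    Subgroup.relIndex_dvd_of_le_left _ hPC
  have h2 : (P : Subgroup G).relIndex (Subgroup.normalizer ((P : Subgroup G) : Set G)) ∣
      (P : Subgroup G).index := by
    rw [← Subgroup.relIndex_mul_index (Subgroup.le_normalizer (H := (P : Subgroup G)))]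
    exact dvd_mul_right _ _
  have h3 : ¬ 2 ∣ (P : Subgroup G).index := Sylow.not_dvd_index P
  rw [← Nat.not_even_iff_odd, even_iff_two_dvd]
  exact fun h => h3 (dvd_trans h (dvd_trans h1 h2))

theorem ht_card_range : Nat.card (P : Subgroup G).normalizerMonoidHom.range =
    (Subgroup.centralizer ((P : Subgroup G) : Set G)).relIndex
      (Subgroup.normalizer ((P : Subgroup G) : Set G)) := by
  rw [← Subgroup.index_ker, Subgroup.normalizerMonoidHom_ker]
  rfl

include e in
theorem ht_range_fix (γ : MulAut (P : Subgroup G))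
    (hγ : γ ∈ (P : Subgroup G).normalizerMonoidHom.range) (y : (P : Subgroup G)) (hy : y ≠ 1)
    (hfix : γ y = y) : γ = 1 := by
  have hodd := ht_odd P m e
  have hpow : γ ^ (Nat.card (P : Subgroup G).normalizerMonoidHom.range) = 1 := by
    have h := pow_card_eq_one' (G := (P : Subgroup G).normalizerMonoidHom.range) (x := ⟨γ, hγ⟩)
    exact congrArg Subtype.val h
  rw [ht_card_range] at hpow
  exact ht_aut_fix m e γ _ hodd hpow y hy hfix

include e in
theorem ht_relIndex_le (hm : 1 ≤ m) : (Subgroup.centralizer ((P : Subgroup G) : Set G)).relIndex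
    (Subgroup.normalizer ((P : Subgroup G) : Set G)) ≤ 3 := by
  classical
  haveI : Fact (Nat.Prime 2) := ⟨Nat.prime_two⟩
  have h2 : 2 ∣ Nat.card (P : Subgroup G) := by
    rw [ht_card m e]
    exact dvd_mul_of_dvd_left (dvd_pow_self 2 (by omega)) _
  obtain ⟨s, hs⟩ := exists_prime_orderOf_dvd_card' (G := (P : Subgroup G)) 2 h2
  have hs1 : s ≠ 1 := by
    intro h
    rw [h, orderOf_one] at hs
    omega
  have hss : s * s = 1 := by
    have h := pow_orderOf_eq_one s
    rw [hs, sq] at h
    exact h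
  rw [← ht_card_range]
  refine le_trans ?_ (ht_card_invol m e hm)
  have hf1 : ∀ γ : (P : Subgroup G).normalizerMonoidHom.range, γ.1 s ≠ 1 := by
    intro γ h
    exact hs1 (γ.1.injective (by rw [h, map_one]))
  have hf2 : ∀ γ : (P : Subgroup G).normalizerMonoidHom.range, γ.1 s * γ.1 s = 1 := by
    intro γ
    rw [← map_mul, hss, map_one]
  refine Nat.card_le_card_of_injective
    (fun γ => (⟨γ.1 s, hf1 γ, hf2 γ⟩ : {w : (P : Subgroup G) // w ≠ 1 ∧ w * w = 1})) ?_
  intro γ γ' h
  have h' : γ.1 s = γ'.1 s := congrArg Subtype.val h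
  have h1 : (γ'.1⁻¹ * γ.1) s = s := by
    rw [MulAut.mul_apply, h', MulAut.inv_apply_self]
  have h2 := ht_range_fix P m e (γ'.1⁻¹ * γ.1)
    (Subgroup.mul_mem _ (Subgroup.inv_mem _ γ'.2) γ.2) s hs1 h1
  rw [inv_mul_eq_one] at h2
  exact Subtype.ext h2.symm

include e in
theorem ht_fix (g : G) (hg : g ∈ Subgroup.normalizer ((P : Subgroup G) : Set G)) (y : G)
    (hy : y ∈ (P : Subgroup G)) (hy1 : y ≠ 1) (hfix : g * y * g⁻¹ = y) :
    g ∈ Subgroup.centralizer ((P : Subgroup G) : Set G) := by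
  have h1 := ht_range_fix P m e ((P : Subgroup G).normalizerMonoidHom ⟨g, hg⟩) ⟨_, rfl⟩ ⟨y, hy⟩
    (fun h => hy1 (congrArg Subtype.val h)) (Subtype.ext hfix)
  have h2 : (⟨g, hg⟩ : Subgroup.normalizer ((P : Subgroup G) : Set G)) ∈
      (P : Subgroup G).normalizerMonoidHom.ker := h1
  rw [Subgroup.normalizerMonoidHom_ker, Subgroup.mem_subgroupOf] at h2
  exact h2

end prep

theorem ht_core {G : Type u} [Group G] [Finite G]
    (hO : ∀ N : Subgroup G, N.Normal → Odd (Nat.card N) → N = ⊥) (K : Subgroup G) [K.Normal] :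
    ∀ N' : Subgroup K, N'.Normal → Odd (Nat.card N') → N' = ⊥ := by
  intro N' hN' hodd
  have h1 : Cfsg.pPrimeCore 2 G = ⊥ := hO _ (Cfsg.Agent.Lib.Helper22.pPrimeCore_normal' 2 G)
    (Nat.coprime_two_right.mp (Cfsg.Agent.Lib.Helper22.card_pPrimeCore_coprime 2 G))
  have h2 := Cfsg.Agent.Lib.Helper22.pPrimeCore_map_subtype_le_of_normal 2 K
  rw [h1, le_bot_iff, Subgroup.map_eq_bot_iff_of_injective _ K.subtype_injective] at h2
  have h3 := Cfsg.Agent.Lib.Helper22.le_pPrimeCore_of_normal 2 hN'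
    (Nat.coprime_two_right.mpr hodd)
  rw [h2] at h3
  exact le_bot_iff.mp h3

set_option maxHeartbeats 1000000 in
theorem ht_main : ∀ (n : ℕ) (G : Type u) [Group G] [Finite G], Nat.card G = n →
    ∀ (P : Sylow 2 G) (m : ℕ), 2 ≤ m →
    ((P : Subgroup G) ≃* Multiplicative (ZMod (2 ^ m) × ZMod (2 ^ m))) →
    (∀ N : Subgroup G, N.Normal → Odd (Nat.card N) → N = ⊥) →
    (P : Subgroup G).Normal ∧
      Subgroup.centralizer ((P : Subgroup G) : Set G) = (P : Subgroup G) ∧
      ((P : Subgroup G).index = 1 ∨ (P : Subgroup G).index = 3) := by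
  intro n
  induction n using Nat.strong_induction_on with
  | _ n ih =>
  intro G _ _ hn P m hm e hO
  classical
  have hcomm := ht_comm m e
  have hab : IsMulCommutative (P : Subgroup G) := ⟨⟨hcomm⟩⟩
  have hcardP := ht_card m e
  have hPC := ht_le_centralizer P m e
  have hodd := ht_odd P m e
  have hle3 := ht_relIndex_le P m e (by omega)
  have hcases : (Subgroup.centralizer ((P : Subgroup G) : Set G)).relIndex
      (Subgroup.normalizer ((P : Subgroup G) : Set G)) = 1 ∨
      (Subgroup.centralizer ((P : Subgroup G) : Set G)).relIndex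
      (Subgroup.normalizer ((P : Subgroup G) : Set G)) = 3 := by
    obtain ⟨j, hj⟩ := hodd
    omega
  have hbot : Cfsg.pPrimeCore 2 G = ⊥ := hO _ (Cfsg.Agent.Lib.Helper22.pPrimeCore_normal' 2 G)
    (Nat.coprime_two_right.mp (Cfsg.Agent.Lib.Helper22.card_pPrimeCore_coprime 2 G))
  rcases hcases with h1 | h3
  · -- Burnside
    have hNC : Subgroup.normalizer ((P : Subgroup G) : Set G) ≤
        Subgroup.centralizer ((P : Subgroup G) : Set G) := Subgroup.relIndex_eq_one.mp h1
    have hcompl := Cfsg.Agent.Lib.Helper50.pPrimeCore_isComplement' P hNC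
    rw [hbot, Subgroup.isComplement'_bot_left] at hcompl
    refine ⟨by rw [hcompl]; infer_instance, ?_, Or.inl (by rw [hcompl]; exact Subgroup.index_top)⟩
    apply le_antisymm
    · intro g _
      rw [hcompl]
      exact Subgroup.mem_top g
    · exact hPC
  · -- the Brauer--Leonard case
    obtain ⟨M, hMmax, h2M⟩ :=
      Cfsg.Agent.Lib.Helper79.exists_maximal_ideal_natCast_mem 2 (by norm_num)
    have hM : Cfsg.IsPModular 2 M := ⟨Nat.prime_two, hMmax, h2M⟩
    have hP16 : 16 ≤ Nat.card (P : Subgroup G) := by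
      rw [hcardP]
      have h4 : 2 ^ 2 ≤ 2 ^ m := Nat.pow_le_pow_right (by norm_num) hm
      nlinarith
    have hP1 : Nat.card (P : Subgroup G) ≠ 1 := by omega
    have hm2 : 3 + 1 < Nat.card (P : Subgroup G) := by omega
    have hfrob : ∀ y : G, y ∈ (P : Subgroup G) → y ≠ 1 → Subgroup.centralizer ({y} : Set G) ⊓
        Subgroup.normalizer ((P : Subgroup G) : Set G) =
          Subgroup.centralizer ((P : Subgroup G) : Set G) := by
      intro y hy hy1
      apply le_antisymm
      · rintro g ⟨hg1, hg2⟩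
        refine ht_fix P m e g hg2 y hy hy1 ?_
        have h := Subgroup.mem_centralizer_iff.mp hg1 y (Set.mem_singleton y)
        rw [← h]
        group
      · intro g hg
        exact ⟨Subgroup.centralizer_le (Set.singleton_subset_iff.mpr hy) hg,
          Subgroup.centralizer_le_normalizer _ hg⟩
    obtain ⟨δ, η, X, Y, a, ζ, χ₂, χ₃, hD, hB, hdisj, hcY, h6, h7, h8, h9, h10, h12, h13, hYr, hX,
      hne2, hne3, h23, hatriv⟩ := bl_three_struct M P hM hab hP1 h3 hm2 hfrob
    haveI : Finite ((P : Subgroup G) →* ℂˣ) := Cfsg.Agent.Lib.Helper79.finite_monoidHom_units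
    haveI : Fintype (blOrb (P : Subgroup G)) := Fintype.ofFinite _
    have hm2X : χ₂ ∈ X := by rw [hX]; simp
    have hm3X : χ₃ ∈ X := by rw [hX]; simp
    have hsplit := bl_sum_B0 M P η hD.2.1 X Y χ₂ χ₃ hB hdisj hYr hX hne2 hne3 h23
    obtain ⟨⟨hdeg, ha2⟩, -⟩ := bl_three_two M P hM hab hP1 h3 hm2 hfrob δ η hD χ₂ χ₃ (a χ₂)
      (a χ₃) (h6 χ₂ hm2X).1 (h6 χ₃ hm3X).1 hsplit (h6 χ₂ hm2X).2 (h6 χ₃ hm3X).2 h12 h13 rfl
    -- the kernel
    have hchar := Cfsg.Agent.Lib.Helper80.isCharacter_of_isIrrCharacter χ₂.2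
    have hχ1 : (χ₂ : G → ℂ) 1 = 1 := by
      rw [Cfsg.Agent.Lib.Helper80.char_one_eq_charDegree hchar, hdeg]
      norm_num
    obtain ⟨K, hKdef⟩ : ∃ K : Subgroup G, K = Cfsg.Agent.Lib.Helper80.irrKer χ₂ := ⟨_, rfl⟩
    haveI hKn : K.Normal := by rw [hKdef]; infer_instance
    have hPK : (P : Subgroup G) ≤ K := by
      intro y hy
      rw [hKdef, Cfsg.Agent.Lib.Helper80.mem_irrKer, hχ1]
      by_cases hy1 : y = 1
      · rw [hy1, hχ1]
      · rw [(h6 χ₂ hm2X).2 y y (bl_isPPart_self P y hy) hy hy1, ha2]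
        norm_num
    have hKtop : K ≠ ⊤ := by
      intro h
      apply hne2
      apply bl_irr_eq_triv_of_const
      intro g
      exact (Cfsg.Agent.Lib.Helper80.mem_irrKer χ₂ g).mp (by
        rw [← hKdef, h]
        exact Subgroup.mem_top g)
    have hKcard : Nat.card K < n := by
      rw [← hn]
      exact lt_of_le_of_ne (Subgroup.card_le_card_group K)
        (fun h => hKtop ((Subgroup.card_eq_iff_eq_top K).mp h))
    -- induction
    have eK : ((P.subtype hPK : Sylow 2 K) : Subgroup K) ≃*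
        Multiplicative (ZMod (2 ^ m) × ZMod (2 ^ m)) :=
      ((MulEquiv.subgroupCongr (Sylow.coe_subtype P hPK)).trans
        (Subgroup.subgroupOfEquivOfLe hPK)).trans e
    obtain ⟨hPKn, -, -⟩ := ih (Nat.card K) hKcard K rfl (P.subtype hPK) m hm eK (ht_core hO K)
    -- `P` is normal
    haveI hPn : (P : Subgroup G).Normal := by
      haveI : ((P.subtype hPK : Sylow 2 K) : Subgroup K).Characteristic :=
        Sylow.characteristic_of_normal _ hPKn
      have h := ConjAct.normal_of_characteristic_of_normal (H := K)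
        (K := ((P.subtype hPK : Sylow 2 K) : Subgroup K))
      rw [Sylow.coe_subtype, Subgroup.subgroupOf_map_subtype, inf_eq_left.mpr hPK] at h
      exact h
    have hNtop : Subgroup.normalizer ((P : Subgroup G) : Set G) = ⊤ :=
      Subgroup.normalizer_eq_top_iff.mpr hPn
    rw [hNtop, Subgroup.relIndex_top_right] at h3
    -- the centralizer
    obtain ⟨C, hCdef⟩ : ∃ C : Subgroup G, C = Subgroup.centralizer ((P : Subgroup G) : Set G) :=
      ⟨_, rfl⟩
    haveI hCn : C.Normal := by rw [hCdef]; infer_instance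
    have hPC' : (P : Subgroup G) ≤ C := by rw [hCdef]; exact hPC
    have hsub := bl_sub_NC P C hPC' (by rw [hCdef]; exact inf_le_left)
    have hcomplC := Cfsg.Agent.Lib.Helper50.pPrimeCore_isComplement' (P.subtype hPC') hsub
    have hbotC : Cfsg.pPrimeCore 2 C = ⊥ := ht_core hO C _
      (Cfsg.Agent.Lib.Helper22.pPrimeCore_normal' 2 C)
      (Nat.coprime_two_right.mp (Cfsg.Agent.Lib.Helper22.card_pPrimeCore_coprime 2 C))
    rw [hbotC, Subgroup.isComplement'_bot_left, Sylow.coe_subtype, Subgroup.subgroupOf_eq_top]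
      at hcomplC
    have hCP : Subgroup.centralizer ((P : Subgroup G) : Set G) = (P : Subgroup G) := by
      rw [← hCdef]
      exact le_antisymm hcomplC hPC'
    refine ⟨hPn, hCP, Or.inr ?_⟩
    have h4 : (P : Subgroup G).index =
        (Subgroup.centralizer ((P : Subgroup G) : Set G)).index := by rw [hCP]
    rw [h4]
    exact h3

end Cfsg.Agent.Lib.Helper78
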