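import Mathlib
import Cfsg.Prelude.Def_Blocks
import Cfsg.Agent.Lib.Helper78.ExtFirstMain
import Cfsg.Agent.Lib.Helper16.CentProd
import Cfsg.Agent.Lib.Helper80.CharKer
import Cfsg.Agent.Lib.Helper75.CharDecomp
import Cfsg.Agent.Lib.Helper75.CharInd
import Cfsg.Agent.S0169
import Cfsg.Agent.S0174
import Cfsg.Agent.S0187
import Cfsg.Agent.S0927
import Cfsg.Agent.S0971

/-!
# Reynolds' theorem: blocks with a normal defect group

A block with normal defect group `P` has all its characters of height zero exactly when `P` is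
commutative.
-/

set_option autoImplicit false

namespace Cfsg.Agent.Lib.Helper78

section
variable {G : Type*} [Group G] [Fintype G] {M : Ideal Cfsg.AlgInt}

/-- commutative normal defect group: all heights are zero (via the theorem of Ito) -/
theorem reynolds_height_zero {p : ℕ} [Fact p.Prime] (hM : Cfsg.IsPModular p M)
    (B : Set (Cfsg.IrrCharacter G)) (hB : Cfsg.IsPBlock M B) (P : Subgroup G) [P.Normal]
    (hP : Cfsg.IsDefectGroup p M B P) (hab : ∀ a ∈ P, ∀ c ∈ P, a * c = c * a)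
    (χ : Cfsg.IrrCharacter G) (hχ : χ ∈ B) : Cfsg.blockHeight p B (χ : G → ℂ) = 0 := by
  classical
  have hp : p.Prime := Fact.out
  have hcard := Cfsg.Agent.Lib.Helper77.card_isDefectGroup hM B hB P hP
  have hdvd : Cfsg.charDegree (χ : G → ℂ) ∣ P.index := by
    obtain ⟨χ, n, ρ, hirr, rfl⟩ := χ
    haveI := hirr
    have h := Cfsg.Agent.S0169.result ρ P hab
    rw [Module.finrank_fin_fun] at h
    show Cfsg.charDegree ρ.character ∣ P.index
    rw [Cfsg.Agent.Lib.Helper80.charDegree_char]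
    exact h
  have hne : ((fun χ : Cfsg.IrrCharacter G =>
      (Cfsg.charDegree (χ : G → ℂ)).factorization p) '' B).Nonempty := ⟨_, χ, hχ, rfl⟩
  obtain ⟨ψ, hψ, hψeq⟩ := Nat.sInf_mem hne
  have hψdvd := Cfsg.Agent.Lib.Helper80.charDegree_dvd_card ψ.2
  have hψpos := Cfsg.Agent.Lib.Helper80.charDegree_pos ψ.2
  have hχpos := Cfsg.Agent.Lib.Helper80.charDegree_pos χ.2
  have h1 : (Cfsg.charDegree (ψ : G → ℂ)).factorization p ≤ (Nat.card G).factorization p :=
    (Nat.factorization_le_iff_dvd hψpos.ne' Nat.card_pos.ne').2 hψdvd p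
  have h2 : (Cfsg.charDegree (χ : G → ℂ)).factorization p ≤ P.index.factorization p :=
    (Nat.factorization_le_iff_dvd hχpos.ne' Subgroup.index_ne_zero_of_finite).2 hdvd p
  have h3 : (Nat.card G).factorization p =
      (Nat.card P).factorization p + P.index.factorization p := by
    rw [← Subgroup.card_mul_index P,
      Nat.factorization_mul Nat.card_pos.ne' Subgroup.index_ne_zero_of_finite]
    rfl
  have h4 : (Nat.card P).factorization p = Cfsg.blockDefect p B := by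
    rw [hcard, hp.factorization_pow, Finsupp.single_eq_same]
  unfold Cfsg.blockDefect at h4
  unfold Cfsg.blockHeight
  have hψeq' : (Cfsg.charDegree (ψ : G → ℂ)).factorization p =
      sInf ((fun χ : Cfsg.IrrCharacter G =>
        (Cfsg.charDegree (χ : G → ℂ)).factorization p) '' B) := hψeq
  omega

/-- all heights zero and normal defect group `P`: `P` is commutative -/
theorem reynolds_comm {p : ℕ} [Fact p.Prime] (hM : Cfsg.IsPModular p M)
    (B : Set (Cfsg.IrrCharacter G)) (hB : Cfsg.IsPBlock M B) (P : Subgroup G) [hPn : P.Normal]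
    (hP : Cfsg.IsDefectGroup p M B P)
    (h0 : ∀ χ ∈ B, Cfsg.blockHeight p B (χ : G → ℂ) = 0) :
    ∀ a ∈ P, ∀ c ∈ P, a * c = c * a := by
  classical
  by_contra hna
  have hp : p.Prime := Fact.out
  have hMp := Cfsg.Agent.Lib.Helper16.isPrime_of_isPModular hM
  have hPp := Cfsg.Agent.Lib.Helper16.isPGroup_of_isDefectGroup hP
  haveI hCn : (Subgroup.centralizer (P : Set G)).Normal := Subgroup.normal_centralizer
  haveI hLn : (P ⊔ Subgroup.centralizer (P : Set G)).Normal := Subgroup.sup_normal _ _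
  haveI : Fintype ↥(P ⊔ Subgroup.centralizer (P : Set G)) := Fintype.ofFinite _
  have hLN : P ⊔ Subgroup.centralizer (P : Set G) ≤ Subgroup.normalizer (P : Set G) :=
    sup_le Subgroup.le_normalizer (Subgroup.centralizer_le_normalizer _)
  obtain ⟨χ0, hχ0⟩ := Cfsg.Agent.Lib.Helper16.IsPBlock.nonempty hMp hB
  obtain ⟨θ, hθ⟩ := Cfsg.Agent.Lib.Helper16.exists_irr_under
    (P ⊔ Subgroup.centralizer (P : Set G)) χ0
  have hb : Cfsg.IsPBlock M (Cfsg.blockOf M
      (θ : ↥(P ⊔ Subgroup.centralizer (P : Set G)) → ℂ)) := ⟨θ, rfl⟩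
  have hS := Cfsg.Agent.S0971.result p M hM P hPp _ hb
  have hind : Cfsg.IsInducedBlock M (P ⊔ Subgroup.centralizer (P : Set G))
      (Cfsg.blockOf M (θ : ↥(P ⊔ Subgroup.centralizer (P : Set G)) → ℂ)) B :=
    hS.2 B hB ⟨χ0, hχ0, θ, Cfsg.Agent.Lib.Helper16.mem_blockOf_self hMp θ, hθ⟩
  have hDb := efm_isDefectGroup hM B hB P hP _ le_sup_left hLN _ hind
  -- the group `L = P C_G(P)` is the product of `P` and its centralizer
  have hG' : P.subgroupOf (P ⊔ Subgroup.centralizer (P : Set G)) ⊔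
      Subgroup.centralizer ((P.subgroupOf (P ⊔ Subgroup.centralizer (P : Set G)) :
        Subgroup ↥(P ⊔ Subgroup.centralizer (P : Set G))) :
        Set ↥(P ⊔ Subgroup.centralizer (P : Set G))) = ⊤ := by
    rw [eq_top_iff]
    rintro ⟨x, hx⟩ -
    have hx' : x ∈ ((P ⊔ Subgroup.centralizer (P : Set G) : Subgroup G) : Set G) := hx
    rw [Subgroup.normal_mul] at hx'
    obtain ⟨a, ha, c, hc, hac⟩ := Set.mem_mul.mp hx'
    have e : (⟨x, hx⟩ : ↥(P ⊔ Subgroup.centralizer (P : Set G))) =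
        ⟨a, le_sup_left (b := Subgroup.centralizer (P : Set G)) ha⟩ *
          ⟨c, le_sup_right (a := P) hc⟩ := Subtype.ext hac.symm
    rw [e]
    apply Subgroup.mul_mem_sup
    · exact Subgroup.mem_subgroupOf.mpr ha
    · rw [Subgroup.mem_centralizer_iff]
      rintro ⟨z, hz⟩ hzP
      have hzP' : z ∈ P := Subgroup.mem_subgroupOf.mp hzP
      apply Subtype.ext
      exact Subgroup.mem_centralizer_iff.mp hc z hzP'
  have hP' : IsPGroup p (P.subgroupOf (P ⊔ Subgroup.centralizer (P : Set G))) :=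
    hPp.comap_subtype
  haveI : Fintype ↥(P.subgroupOf (P ⊔ Subgroup.centralizer (P : Set G))) := Fintype.ofFinite _
  choose lam psi hspec using
    (fun χ : Cfsg.IrrCharacter ↥(P ⊔ Subgroup.centralizer (P : Set G)) =>
      Cfsg.Agent.Lib.Helper16.exists_prod_decomp
        (P.subgroupOf (P ⊔ Subgroup.centralizer (P : Set G))) hG' χ)
  -- a nonlinear irreducible character of `P`
  obtain ⟨lam0, hlam0⟩ : ∃ lam0 : Cfsg.IrrCharacter
      ↥(P.subgroupOf (P ⊔ Subgroup.centralizer (P : Set G))),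
      (lam0 : ↥(P.subgroupOf (P ⊔ Subgroup.centralizer (P : Set G))) → ℂ) 1 ≠ 1 := by
    by_contra hall
    push Not at hall
    have hcomm := (Cfsg.Agent.S0187.result
      (G := ↥(P.subgroupOf (P ⊔ Subgroup.centralizer (P : Set G))))).mpr hall
    apply hna
    intro a ha c hc
    have := hcomm ⟨⟨a, le_sup_left (b := Subgroup.centralizer (P : Set G)) ha⟩,
        Subgroup.mem_subgroupOf.mpr ha⟩
      ⟨⟨c, le_sup_left (b := Subgroup.centralizer (P : Set G)) hc⟩,
        Subgroup.mem_subgroupOf.mpr hc⟩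
    exact congrArg (fun z : ↥(P.subgroupOf (P ⊔ Subgroup.centralizer (P : Set G))) =>
      ((z : ↥(P ⊔ Subgroup.centralizer (P : Set G))) : G)) this
  have hlamJ : Cfsg.MemLocalIdeal M
      ((lam0 : ↥(P.subgroupOf (P ⊔ Subgroup.centralizer (P : Set G))) → ℂ) 1) := by
    rw [Cfsg.Agent.Lib.Helper80.char_one_eq_charDegree
      (Cfsg.Agent.Lib.Helper80.isCharacter_of_isIrrCharacter lam0.2)]
    rw [Cfsg.Agent.Lib.Helper16.memLocalIdeal_natCast_iff hM]
    have h2 := Cfsg.Agent.Lib.Helper80.charDegree_dvd_card lam0.2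
    obtain ⟨k, hk⟩ := IsPGroup.iff_card.mp hP'
    rw [hk] at h2
    obtain ⟨j, -, hj⟩ := (Nat.dvd_prime_pow hp).mp h2
    rcases Nat.eq_zero_or_pos j with rfl | hjpos
    · exfalso
      apply hlam0
      rw [Cfsg.Agent.Lib.Helper80.char_one_eq_charDegree
        (Cfsg.Agent.Lib.Helper80.isCharacter_of_isIrrCharacter lam0.2), hj]
      simp
    · rw [hj]
      exact dvd_pow_self p hjpos.ne'
  obtain ⟨θ', hθ'b, hlam⟩ := Cfsg.Agent.Lib.Helper16.exists_mem_lam_eq hM
    (P.subgroupOf (P ⊔ Subgroup.centralizer (P : Set G))) hP' _ hb lam psi hspec lam0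
  obtain ⟨χ, hχθ'⟩ := Cfsg.Agent.Lib.Helper16.exists_irr_over
    (P ⊔ Subgroup.centralizer (P : Set G)) θ'
  have hχB : χ ∈ B := by
    have hind' := hS.2 (Cfsg.blockOf M (χ : G → ℂ)) ⟨χ, rfl⟩
      ⟨χ, Cfsg.Agent.Lib.Helper16.mem_blockOf_self hMp χ, θ', hθ'b, hχθ'⟩
    rw [efm_unique hMp hind hind']
    exact Cfsg.Agent.Lib.Helper16.mem_blockOf_self hMp χ
  obtain ⟨y, hy, hyP, Q, hQ⟩ := Cfsg.Agent.Lib.Helper16.exists_isDefectClass_mem_centralizer hP
  have hnot := (Cfsg.Agent.S0927.result p M hM B hB y hy Q 1 (one_mem _)).1 χ hχB (h0 χ hχB)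
  apply hnot
  have hyL : y ∈ P ⊔ Subgroup.centralizer (P : Set G) := le_sup_right (a := P) hyP
  have hcl := Cfsg.Agent.S0174.result (P ⊔ Subgroup.centralizer (P : Set G)) hLn
    (χ : G → ℂ) χ.2 (θ' : ↥(P ⊔ Subgroup.centralizer (P : Set G)) → ℂ) θ'.2 hχθ'
  have hval := congrFun hcl ⟨y, hyL⟩
  have e1 : (((1 : Subgroup.centralizer ({y} : Set G)) : G) * y) = y := by simp
  rw [e1]
  have hval' : (χ : G → ℂ) y = (Cfsg.classInner
      (fun n : ↥(P ⊔ Subgroup.centralizer (P : Set G)) => (χ : G → ℂ) n)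
      (θ' : ↥(P ⊔ Subgroup.centralizer (P : Set G)) → ℂ) •
      ∑ᶠ ψ ∈ {ψ : ↥(P ⊔ Subgroup.centralizer (P : Set G)) → ℂ | ∃ g : G, ψ =
        fun n : ↥(P ⊔ Subgroup.centralizer (P : Set G)) =>
          (θ' : ↥(P ⊔ Subgroup.centralizer (P : Set G)) → ℂ)
            ⟨g * n * g⁻¹, hLn.conj_mem n n.2 g⟩}, ψ) ⟨y, hyL⟩ := hval
  rw [hval']
  obtain ⟨m, hm⟩ := Cfsg.Agent.Lib.Helper75.classInner_char_irr_nat
    (Cfsg.Agent.Lib.Helper75.isCharacter_res (P ⊔ Subgroup.centralizer (P : Set G))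
      (Cfsg.Agent.Lib.Helper80.isCharacter_of_isIrrCharacter χ.2)) θ'.2
  rw [hm, Pi.smul_apply, smul_eq_mul]
  apply Cfsg.Agent.Lib.Helper16.memLocalIdeal_mul_left hMp
    (Cfsg.Agent.Lib.Helper16.memLocalRing_natCast hMp m)
  have hfin : ({ψ : ↥(P ⊔ Subgroup.centralizer (P : Set G)) → ℂ | ∃ g : G, ψ =
      fun n : ↥(P ⊔ Subgroup.centralizer (P : Set G)) =>
        (θ' : ↥(P ⊔ Subgroup.centralizer (P : Set G)) → ℂ)
          ⟨g * n * g⁻¹, hLn.conj_mem n n.2 g⟩}).Finite := by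
    have : {ψ : ↥(P ⊔ Subgroup.centralizer (P : Set G)) → ℂ | ∃ g : G, ψ =
      fun n : ↥(P ⊔ Subgroup.centralizer (P : Set G)) =>
        (θ' : ↥(P ⊔ Subgroup.centralizer (P : Set G)) → ℂ)
          ⟨g * n * g⁻¹, hLn.conj_mem n n.2 g⟩} = Set.range (fun g : G =>
      fun n : ↥(P ⊔ Subgroup.centralizer (P : Set G)) =>
        (θ' : ↥(P ⊔ Subgroup.centralizer (P : Set G)) → ℂ)
          ⟨g * n * g⁻¹, hLn.conj_mem n n.2 g⟩) := by
      ext ψ
      constructor
      · rintro ⟨g, rfl⟩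
        exact ⟨g, rfl⟩
      · rintro ⟨g, rfl⟩
        exact ⟨g, rfl⟩
    rw [this]
    exact Set.finite_range _
  rw [finsum_mem_eq_finite_toFinset_sum _ hfin, Finset.sum_apply]
  apply Cfsg.Agent.Lib.Helper16.memLocalIdeal_sum hMp
  intro ψ hψ
  rw [Set.Finite.mem_toFinset] at hψ
  obtain ⟨g, rfl⟩ := hψ
  -- the value of a conjugate of `θ'` at `y`
  have hgy : g * y * g⁻¹ ∈ Subgroup.centralizer (P : Set G) :=
    hCn.conj_mem y hyP g
  have hgyL : g * y * g⁻¹ ∈ P ⊔ Subgroup.centralizer (P : Set G) := le_sup_right (a := P) hgy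
  have hc' : (⟨g * y * g⁻¹, hgyL⟩ : ↥(P ⊔ Subgroup.centralizer (P : Set G))) ∈
      Subgroup.centralizer ((P.subgroupOf (P ⊔ Subgroup.centralizer (P : Set G)) :
        Subgroup ↥(P ⊔ Subgroup.centralizer (P : Set G))) :
        Set ↥(P ⊔ Subgroup.centralizer (P : Set G))) := by
    rw [Subgroup.mem_centralizer_iff]
    rintro ⟨z, hz⟩ hzP
    have hzP' : z ∈ P := Subgroup.mem_subgroupOf.mp hzP
    apply Subtype.ext
    exact Subgroup.mem_centralizer_iff.mp hgy z hzP'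
  obtain ⟨c0, hc0⟩ : ∃ c0 : ↥(Subgroup.centralizer
      ((P.subgroupOf (P ⊔ Subgroup.centralizer (P : Set G)) :
        Subgroup ↥(P ⊔ Subgroup.centralizer (P : Set G))) :
        Set ↥(P ⊔ Subgroup.centralizer (P : Set G)))),
      (c0 : ↥(P ⊔ Subgroup.centralizer (P : Set G))) = ⟨g * y * g⁻¹, hgyL⟩ := ⟨⟨_, hc'⟩, rfl⟩
  have hsp := hspec θ' 1 c0
  rw [hlam, OneMemClass.coe_one, one_mul, hc0] at hsp
  show Cfsg.MemLocalIdeal M ((θ' : ↥(P ⊔ Subgroup.centralizer (P : Set G)) → ℂ)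
    ⟨g * y * g⁻¹, hgyL⟩)
  rw [hsp]
  exact Cfsg.Agent.Lib.Helper16.memLocalIdeal_mul_right hMp hlamJ
    (Cfsg.Agent.Lib.Helper77.memLocalRing_irr_apply hMp _ _)

end

end Cfsg.Agent.Lib.Helper78
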