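import Mathlib

set_option autoImplicit false

namespace Cfsg.Agent.Lib.Helper78

open scoped ComplexConjugate

/-- a complex number of norm one with real part one is one -/
theorem eq_one_of_norm_one_re_one {w : ℂ} (h1 : ‖w‖ = 1) (h2 : w.re = 1) : w = 1 := by
  have h3 : Complex.normSq w = 1 := by
    rw [Complex.normSq_eq_norm_sq, h1]; norm_num
  rw [Complex.normSq_apply, h2] at h3
  have h4 : w.im = 0 := by nlinarith
  apply Complex.ext
  · simpa using h2
  · simpa using h4

/-- if an average of numbers of norm one has norm one, all of them equal the average -/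
theorem eq_avg_of_norm_avg_eq_one {ι : Type*} [Fintype ι] (d : ι → ℂ) (hd : ∀ i, ‖d i‖ = 1)
    (α : ℂ) (hα : (Fintype.card ι : ℂ) * α = ∑ i, d i) (hn : ‖α‖ = 1) : ∀ i, d i = α := by
  classical
  have hαα : conj α * α = 1 := by
    rw [mul_comm, Complex.mul_conj, Complex.normSq_eq_norm_sq, hn]; norm_num
  have hle : ∀ i, (conj α * d i).re ≤ 1 := by
    intro i
    calc (conj α * d i).re ≤ ‖conj α * d i‖ := Complex.re_le_norm _
      _ = 1 := by rw [norm_mul, RCLike.norm_conj, hn, hd i, mul_one]
  have hsum : ∑ i, (1 - (conj α * d i).re) = 0 := by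
    rw [Finset.sum_sub_distrib, ← Complex.re_sum, ← Finset.mul_sum, ← hα]
    have : conj α * ((Fintype.card ι : ℂ) * α) = (Fintype.card ι : ℂ) := by
      rw [mul_left_comm, hαα, mul_one]
    rw [this]
    simp
  have hz := (Finset.sum_eq_zero_iff_of_nonneg (fun i _ => sub_nonneg.2 (hle i))).1 hsum
  intro i
  have hre : (conj α * d i).re = 1 := by
    have := hz i (Finset.mem_univ i)
    linarith
  have hnorm : ‖conj α * d i‖ = 1 := by rw [norm_mul, RCLike.norm_conj, hn, hd i, mul_one]
  have h1 := eq_one_of_norm_one_re_one hnorm hre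
  calc d i = (α * conj α) * d i := by rw [mul_comm α, hαα, one_mul]
    _ = α * (conj α * d i) := by ring
    _ = α := by rw [h1, mul_one]

/-- Burnside's lemma: an average of roots of unity which is an algebraic integer is zero,
or all the roots of unity are equal. -/
theorem sum_roots_eq_zero_or_all_eq {ι : Type*} [Fintype ι] (d : ι → ℂ) (m : ℕ) (hm : 0 < m)
    (hd : ∀ i, d i ^ m = 1) (hint : IsIntegral ℤ ((∑ i, d i) / (Fintype.card ι : ℂ))) :
    (∑ i, d i = 0) ∨ (∀ i, d i = (∑ j, d j) / (Fintype.card ι : ℂ)) := by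
  classical
  by_cases hn : Fintype.card ι = 0
  · left
    have : IsEmpty ι := Fintype.card_eq_zero_iff.1 hn
    simp
  have hnC : (Fintype.card ι : ℂ) ≠ 0 := by exact_mod_cast hn
  set α := (∑ i, d i) / (Fintype.card ι : ℂ) with hα
  set ζ : ℂ := Complex.exp (2 * Real.pi * Complex.I / m) with hζ
  have hprim : IsPrimitiveRoot ζ m := Complex.isPrimitiveRoot_exp m hm.ne'
  have hmne : NeZero m := ⟨hm.ne'⟩
  have he : ∀ i, ∃ e : ℕ, ζ ^ e = d i := fun i => by
    obtain ⟨e, _, he⟩ := hprim.eq_pow_of_pow_eq_one (hd i)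
    exact ⟨e, he⟩
  choose e he using he
  have hζint : IsIntegral ℚ ζ := (hprim.isIntegral hm).tower_top
  let K := IntermediateField.adjoin ℚ {ζ}
  let _ : NumberField K :=
    { to_charZero := inferInstance
      to_finiteDimensional := IntermediateField.adjoin.finiteDimensional hζint }
  let y : K := ⟨ζ, IntermediateField.mem_adjoin_simple_self ℚ ζ⟩
  have hy : y ^ m = 1 := by
    apply Subtype.ext
    simpa [y] using hprim.pow_eq_one
  let α' : K := (∑ i, y ^ e i) / (Fintype.card ι : K)
  have hα' : (α' : ℂ) = α := by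
    simp only [α', y, hα]
    push_cast
    congr 1
    apply Finset.sum_congr rfl
    intro i _
    exact he i
  have hint' : IsIntegral ℤ α' := by
    rw [← hα'] at hint
    exact IntermediateField.coe_isIntegral_iff.mp hint
  have hbound : ∀ φ : K →+* ℂ, ‖φ α'‖ ≤ 1 := by
    intro φ
    have hφy : ‖φ y‖ = 1 := by
      apply Complex.norm_eq_one_of_pow_eq_one (n := m) _ hm.ne'
      rw [← map_pow, hy, map_one]
    simp only [α', map_div₀, map_sum, map_pow, map_natCast, norm_div]
    rw [div_le_one (by simpa using Nat.pos_of_ne_zero hn)]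
    calc ‖∑ i, φ y ^ e i‖ ≤ ∑ i, ‖φ y ^ e i‖ := norm_sum_le _ _
      _ = ∑ i : ι, (1 : ℝ) := by
        apply Finset.sum_congr rfl
        intro i _
        rw [norm_pow, hφy, one_pow]
      _ = ‖(Fintype.card ι : ℂ)‖ := by simp
  by_cases h0 : α' = 0
  · left
    have : α = 0 := by rw [← hα', h0]; rfl
    rw [hα] at this
    rcases div_eq_zero_iff.1 this with h | h
    · exact h
    · exact absurd h hnC
  · right
    obtain ⟨N, hN, hpow⟩ := NumberField.Embeddings.pow_eq_one_of_norm_le_one K ℂ h0 hint' hbound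
    have hαN : α ^ N = 1 := by
      rw [← hα']
      have := congrArg (fun z : K => (z : ℂ)) hpow
      simpa using this
    have hnorm : ‖α‖ = 1 := Complex.norm_eq_one_of_pow_eq_one hαN hN.ne'
    apply eq_avg_of_norm_avg_eq_one d (fun i => Complex.norm_eq_one_of_pow_eq_one (hd i) hm.ne') α _ hnorm
    rw [hα]
    field_simp

end Cfsg.Agent.Lib.Helper78
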